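/- ALTSEC: weights of a family of disjoint `3`-cycles. -/
import Cfsg.Agent.H40.ASSpec2
import Cfsg.Agent.H79.AM1

set_option autoImplicit false

namespace H40.AS

open Equiv Equiv.Perm Module H57 H79.AM

section Grp

variable {Ω : Type} [Fintype Ω] [DecidableEq Ω] {H : Type} [Group H] {π : H →* Perm Ω}

/-- A central extension of the alternating group with kernel of exponent `2`. -/
structure Cv (π : H →* Perm Ω) : Prop where
  range : π.range = alternatingGroup Ω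
  sq : ∀ g, π g = 1 → g * g = 1
  cen : ∀ g, π g = 1 → ∀ h, g * h = h * g

theorem cv_alt : Cv (alternatingGroup Ω).subtype :=
  ⟨Subgroup.range_subtype _, fun g e => by rw [show g = 1 from Subtype.ext e, one_mul],
    fun g e h => by rw [show g = 1 from Subtype.ext e, one_mul, mul_one]⟩

theorem cv_dc {z : H} (D : H49.DC z π) : Cv π :=
  ⟨D.range, fun g e => (_root_.sq g).symm.trans (D.sq_one e),
    fun g e h => by rcases (D.ker g).1 e with rfl | rfl; exacts [by simp, (D.cen h).eq]⟩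

theorem Cv.lift (C : Cv π) {σ : Perm Ω} (h : sign σ = 1) : ∃ g, π g = σ :=
  C.range.ge (mem_alternatingGroup.2 h)

theorem Cv.lift3 (C : Cv π) {σ : Perm Ω} (h : sign σ = 1) (h3 : σ ^ 3 = 1) :
    ∃ g, π g = σ ∧ g ^ 3 = 1 := by
  obtain ⟨g, rfl⟩ := C.lift h
  have := C.sq (g ^ 3) (by rw [map_pow, h3])
  exact ⟨g ^ 4, by rw [map_pow, pow_succ, h3, one_mul], by
    rw [show (g ^ 4) ^ 3 = g ^ 3 * g ^ 3 * (g ^ 3 * g ^ 3) by group, this, one_mul]⟩

theorem Cv.uniq (C : Cv π) {g h : H} (e : π g = π h) (hg : g ^ 3 = 1) (hh : h ^ 3 = 1) :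
    g = h := by
  have k : π (g * h⁻¹) = 1 := by rw [map_mul, map_inv, e, mul_inv_cancel]
  have := (show Commute (g * h⁻¹) h from C.cen _ k h).mul_pow 3
  rw [inv_mul_cancel_right, hg, hh, mul_one, pow_succ, pow_two, C.sq _ k, one_mul] at this
  exact mul_inv_eq_one.1 this.symm

theorem Cv.rel (C : Cv π) {x y g : H} (hx : x ^ 3 = 1) (hy : y ^ 3 = 1)
    (e : π x * π g = π g * π y) : x * g = g * y := by
  rw [← mul_inv_eq_iff_eq_mul.1 (C.uniq (g := g * y * g⁻¹) (h := x) (by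
    rw [map_mul, map_mul, map_inv, ← e, mul_inv_cancel_right])
    (by rw [conj_pow, hy, mul_one, mul_inv_cancel]) hx)]

variable {ι : Type}

/-- Lifts of order three of the cycles on the blocks of `β`. -/
structure Frm (π : H →* Perm Ω) (β : ι × Fin 3 ↪ Ω) (x : ι → H) : Prop extends Cv π where
  pi : ∀ i, π (x i) = cyc (β (i, 1)) (β (i, 2)) (β (i, 0))
  cube : ∀ i, x i ^ 3 = 1

theorem Cv.frm (C : Cv π) (β : ι × Fin 3 ↪ Ω) : ∃ x, Frm π β x := by
  have h : ∀ i, β (i, 0) ≠ β (i, 1) ∧ β (i, 0) ≠ β (i, 2) := fun i => by simp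
  choose x h1 h2 using fun i => C.lift3 (sign_cyc (h i)) (cyc_pow_three (by simp) (h i))
  exact ⟨x, C, h1, h2⟩

variable {β : ι × Fin 3 ↪ Ω} {x : ι → H}

theorem Frm.sub (F : Frm π β x) {κ : Type} (f : κ ↪ ι) :
    Frm π ((f.prodMap (Function.Embedding.refl _)).trans β) (fun j => x (f j)) :=
  ⟨F.toCv, fun j => F.pi (f j), fun j => F.cube (f j)⟩

theorem Frm.supp (F : Frm π β x) (i : ι) : SuppIn (π (x i)) (Set.range β) :=
  F.pi i ▸ (suppIn_cyc _ _ _).mono (by rintro _ (rfl | rfl | rfl) <;> exact ⟨_, rfl⟩)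

theorem Frm.rel1 (F : Frm π β x) {g : H} {i j : ι} (h : ∀ a, π g (β (j, a)) = β (i, a)) :
    x i * g = g * x j :=
  F.rel (F.cube i) (F.cube j) (by
    rw [F.pi, F.pi, ← h, ← h, ← h, ← conj_cyc, inv_mul_cancel_right])

theorem Frm.rel2 (F : Frm π β x) {g : H} {i j : ι} (h : ∀ a, π g (β (j, a)) = β (i, 2 * a)) :
    x i * g = g * (x j * x j) := by
  have e : x j * x j = (x j)⁻¹ := eq_inv_of_mul_eq_one_left (by rw [← pow_three', F.cube])
  refine F.rel (F.cube i) (cube_sq (F.cube j)) ?_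
  rw [e, map_inv, F.pi, F.pi, ← cyc_swap, show β (i, 1) = _ from (h 2).symm,
    show β (i, 2) = _ from (h 1).symm, show β (i, 0) = _ from (h 0).symm, ← conj_cyc,
    inv_mul_cancel_right]

theorem Frm.fix (F : Frm π β x) {i j : ι} (h : i ≠ j) (a : Fin 3) :
    π (x i) (β (j, a)) = β (j, a) := by
  rw [F.pi, cyc_of_ne] <;> simp [h.symm]

theorem Frm.comm (F : Frm π β x) (i j : ι) : x i * x j = x j * x i := by
  by_cases h : i = j
  · rw [h]
  · exact F.rel1 (F.fix (Ne.symm h))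

end Grp

/-- Dimension of a partial weight space with `f` free coordinates and support `j`. -/
def P3 (μ : ℕ → ℕ) : ℕ → ℕ → ℕ
  | 0, j => μ j
  | f + 1, j => P3 μ f j + 2 * P3 μ f (j + 1)

section Cnt
variable {ι : Type} [Fintype ι] [DecidableEq ι]

/-- The number of free coordinates. -/
def fr (w : ι → Option (Fin 3)) : ℕ := (Finset.univ.filter fun i => w i = none).card

/-- The number of nonzero coordinates. -/
def sz (w : ι → Option (Fin 3)) : ℕ := (Finset.univ.filter fun i => w i = some 1 ∨ w i = some 2).card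

theorem fr_update {w : ι → Option (Fin 3)} {i : ι} (h : w i = none) (c : Fin 3) :
    fr (Function.update w i (some c)) + 1 = fr w := by
  unfold fr
  rw [← Finset.card_insert_of_notMem (a := i) (by simp)]
  congr 1; ext j
  by_cases e : j = i <;> simp [e, h]

theorem sz_update {w : ι → Option (Fin 3)} {i : ι} (h : w i = none) (c : Fin 3) :
    sz (Function.update w i (some c)) = sz w + if c = 0 then 0 else 1 := by
  unfold sz
  split_ifs with hc
  · rw [add_zero]; congr 1; ext j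
    by_cases e : j = i <;> simp [e, h, hc]
  · rw [← Finset.card_insert_of_notMem (a := i) (by simp [h])]
    congr 1; ext j
    by_cases e : j = i
    · simp only [e, Function.update_self, Finset.mem_filter, Finset.mem_univ, true_and,
        Finset.mem_insert, true_or, iff_true]
      revert c; decide
    · simp [e]

/-- The permutation of the blocks given by `σ` and the signs `e`. -/
def bp (σ : Perm ι) (e : ι → Fin 3) : Perm (ι × Fin 3) :=
  prodCongrLeft (fun _ => σ) * prodCongrRight fun j => if e j = 2 then swap 1 2 else 1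

omit [Fintype ι] [DecidableEq ι] in
theorem bp_apply (σ : Perm ι) {e : ι → Fin 3} {j : ι} (h : e j ≠ 0) (a : Fin 3) :
    bp σ e (j, a) = (σ j, e j * a) := by
  simp only [bp, Perm.mul_apply, prodCongrRight_apply, prodCongrLeft_apply]
  congr 1
  generalize e j = c at h
  revert a c; decide

theorem exists_odd (h3 : 3 ≤ Fintype.card ι) (w : ι → Fin 3) : ∃ (σ : Perm ι) (e : ι → Fin 3),
    sign (bp σ e) = -1 ∧ ∀ j, e j ≠ 0 ∧ w (σ j) = e j * w j := by
  by_cases h : ∃ i, w i = 0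
  · obtain ⟨i, hi⟩ := h
    refine ⟨1, Function.update 1 i 2, ?_, fun j => ?_⟩
    · rw [bp, map_mul, sign_prodCongrLeft, sign_prodCongrRight, Finset.prod_eq_single i] <;>
        simp +contextual
    · by_cases e : j = i <;> simp [e, hi]
  · obtain ⟨i, j, h1, h2⟩ := Fintype.exists_ne_map_eq_of_card_lt
      (fun i => (⟨w i, fun e => h ⟨i, e⟩⟩ : {c : Fin 3 // c ≠ 0})) (by simpa using (show 2 < _ from h3))
    replace h2 : w i = w j := congrArg Subtype.val h2
    refine ⟨swap i j, 1, ?_, fun l => ⟨by simp, ?_⟩⟩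
    · rw [bp, map_mul, sign_prodCongrLeft, sign_prodCongrRight]
      simp [h1]
      decide
    · rw [swap_apply_def]; split_ifs with a b <;> simp [*]

omit [DecidableEq ι] in
theorem exists_bp {w w' : ι → Fin 3} (h : sz (some ∘ w) = sz (some ∘ w')) :
    ∃ (σ : Perm ι) (e : ι → Fin 3), ∀ j, e j ≠ 0 ∧ w' (σ j) = e j * w j := by
  have h0 : ∀ c : Fin 3, (some c = some 1 ∨ some c = some 2) ↔ c ≠ 0 := by decide
  simp only [sz, Function.comp_apply, h0, ← Fintype.card_subtype] at h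
  let σ := (Fintype.equivOfCardEq h).extendSubtype
  refine ⟨σ, fun j => if w j = 0 then 1 else w' (σ j) * w j, fun j => ?_⟩
  by_cases e : w j = 0
  · simpa [e] using (Fintype.equivOfCardEq h).extendSubtype_not_mem j (not_not.2 e)
  · have := (Fintype.equivOfCardEq h).extendSubtype_mem j e
    simp only [e, if_false]
    change w' (σ j) ≠ 0 at this
    generalize w' (σ j) = a, w j = b at this e
    revert a b; decide

end Cnt

section Rep

variable {Ω : Type} [Fintype Ω] [DecidableEq Ω] {H : Type} [Group H] {π : H →* Perm Ω}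
  {ι : Type} {β : ι × Fin 3 ↪ Ω} {x : ι → H}
  {k : Type} [Field k] {V : Type} [AddCommGroup V] [Module k V] {ρ : Representation k H V} {ω : k}

variable (ω ρ x) in
/-- The partial weight space. -/
def PW (U : Submodule k V) (w : ι → Option (Fin 3)) : Submodule k V :=
  U ⊓ ⨅ i, ⨅ c, ⨅ _ : w i = some c, Ei ω (ρ (x i)) c

theorem mem_PW {U : Submodule k V} {w : ι → Option (Fin 3)} {v : V} :
    v ∈ PW x ρ ω U w ↔ v ∈ U ∧ ∀ i c, w i = some c → v ∈ Ei ω (ρ (x i)) c := by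
  simp only [PW, Submodule.mem_inf, Submodule.mem_iInf]

theorem PW_none (U : Submodule k V) : PW x ρ ω U (fun _ => none) = U := by
  ext v; simp [mem_PW]

theorem PW_update [DecidableEq ι] (U : Submodule k V) {w : ι → Option (Fin 3)} {i : ι}
    (h : w i = none) (c : Fin 3) :
    PW x ρ ω U (Function.update w i (some c)) = PW x ρ ω U w ⊓ Ei ω (ρ (x i)) c := by
  ext v
  simp only [Submodule.mem_inf, mem_PW, and_assoc]
  refine and_congr_right fun _ => ⟨fun a => ⟨fun j d e => a j d ?_, a i c (by simp)⟩,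
    fun a j d e => ?_⟩
  · rwa [Function.update_of_ne (by rintro rfl; simp [h] at e)]
  · by_cases b : j = i
    · subst b
      obtain rfl : c = d := by simpa using e
      exact a.2
    · exact a.1 j d (by rwa [Function.update_of_ne b] at e)

theorem PW_mono (U : Submodule k V) {w w' : ι → Option (Fin 3)}
    (h : ∀ i c, w' i = some c → w i = some c) : PW x ρ ω U w ≤ PW x ρ ω U w' :=
  fun _ hv => mem_PW.2 ⟨(mem_PW.1 hv).1, fun i c e => (mem_PW.1 hv).2 i c (h i c e)⟩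

variable (F : Frm π β x) (hω : ω ^ 2 + ω + 1 = 0)
include F hω

/-- Moving a weight vector. -/
theorem Frm.move {U : Submodule k V} {w w' : ι → Option (Fin 3)} {g : H} {v : V}
    (hv : v ∈ PW x ρ ω U w) (hU : ρ g v ∈ U) (h : ∀ i c, w' i = some c → ∃ j e, e ≠ 0 ∧
      w j = some (e * c) ∧ ∀ a, π g (β (j, a)) = β (i, e * a)) : ρ g v ∈ PW x ρ ω U w' := by
  refine mem_PW.2 ⟨hU, fun i c hc => ?_⟩
  obtain ⟨j, e, e0, h1, h2⟩ := h i c hc
  have h3 := (mem_PW.1 hv).2 j _ h1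
  obtain rfl | rfl : e = 1 ∨ e = 2 := by revert e0; generalize e = e; revert e; decide
  · exact Ei_conj (F.rel1 (by simpa using h2)) (by simpa using h3)
  · have := Ei_conj (F.rel2 h2) (Ei_sq hω h3)
    rwa [(by decide : ∀ c : Fin 3, -(2 * c) = c)] at this

/-- Elements fixing the blocks in use preserve the weight space. -/
theorem Frm.inv {U : Submodule k V} {w : ι → Option (Fin 3)} {T : Set Ω} (hU : Inv π ρ T U)
    (h : ∀ i c, w i = some c → ∀ a, β (i, a) ∉ T) : Inv π ρ T (PW x ρ ω U w) :=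
  fun g hg v hv => F.move hω hv (hU g hg v (mem_PW.1 hv).1) fun i c e =>
    ⟨i, 1, one_ne_zero, by simpa using e, fun a => by simpa using hg _ (h i c e a)⟩

omit hω in
theorem Frm.x_mem {U : Submodule k V} (hU : Inv π ρ (Set.range β) U) {w : ι → Option (Fin 3)}
    (i : ι) {v : V} (hv : v ∈ PW x ρ ω U w) : ρ (x i) v ∈ PW x ρ ω U w :=
  mem_PW.2 ⟨hU _ (F.supp i) v (mem_PW.1 hv).1, fun j c e =>
    Ei_conj (F.comm j i) ((mem_PW.1 hv).2 j c e)⟩

omit F hω in
theorem rho3 {g : H} (h : g ^ 3 = 1) (v : V) : ρ g (ρ g (ρ g v)) = v := by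
  rw [← ap, ← ap, ← sq, ← pow_succ, h, map_one]; rfl

variable [FiniteDimensional k V] [Fintype ι] [DecidableEq ι]

theorem Frm.le_of_sz (h3 : 3 ≤ Fintype.card ι) {U : Submodule k V}
    (hU : Inv π ρ (Set.range β) U) {w w' : ι → Fin 3} (h : sz (some ∘ w) = sz (some ∘ w')) :
    finrank k (PW x ρ ω U (some ∘ w)) ≤ finrank k (PW x ρ ω U (some ∘ w')) := by
  obtain ⟨τ, σ, e, h1, h2⟩ : ∃ (τ : Perm (ι × Fin 3)) (σ : Perm ι) (e : ι → Fin 3), sign τ = 1 ∧
      ∀ j, e j ≠ 0 ∧ w' (σ j) = e j * w j ∧ ∀ a, τ (j, a) = (σ j, e j * a) := by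
    obtain ⟨σ, e, h1⟩ := exists_bp h
    rcases Int.units_eq_one_or (sign (bp σ e)) with s | s
    · exact ⟨_, σ, e, s, fun j => ⟨(h1 j).1, (h1 j).2, bp_apply σ (h1 j).1⟩⟩
    obtain ⟨σ', e', s', h2⟩ := exists_odd h3 w
    refine ⟨bp σ e * bp σ' e', σ * σ', fun j => e (σ' j) * e' j, by simp [s, s'], fun j =>
      ⟨(by decide : ∀ a b : Fin 3, a ≠ 0 → b ≠ 0 → a * b ≠ 0) _ _ (h1 _).1 (h2 j).1, ?_,
        fun a => ?_⟩⟩
    · rw [Perm.mul_apply, (h1 _).2, (h2 j).2, mul_assoc]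
    · rw [Perm.mul_apply, bp_apply _ (h2 j).1, bp_apply _ (h1 _).1, mul_assoc]; rfl
  obtain ⟨g, hg⟩ := F.lift ((sign_em β τ).trans h1)
  refine finrank_le_of_map g fun v hv => F.move hω hv
    (hU g (hg ▸ suppIn_em β τ) v (mem_PW.1 hv).1) fun i c hc => ?_
  obtain ⟨j, rfl⟩ := σ.surjective i
  obtain ⟨a, b, d⟩ := h2 j
  refine ⟨j, e j, a, ?_, fun a => by rw [hg, em_apply, d]⟩
  obtain rfl : w' (σ j) = c := by simpa using hc
  rw [b, Function.comp_apply]
  generalize e j = s, w j = t at a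
  revert s t; decide

/-- The dimensions of the partial weight spaces. -/
theorem Frm.exists_mu (h3 : (3 : k) ≠ 0) (hι : 3 ≤ Fintype.card ι) {U : Submodule k V}
    (hU : Inv π ρ (Set.range β) U) :
    ∃ μ : ℕ → ℕ, ∀ w, finrank k (PW x ρ ω U w) = P3 μ (fr w) (sz w) := by
  have hf : (fun w : ι → Fin 3 => finrank k (PW x ρ ω U (some ∘ w))).FactorsThrough
      fun w => sz (some ∘ w) := fun a b e =>
    le_antisymm (F.le_of_sz hω hι hU e) (F.le_of_sz hω hι hU e.symm)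
  obtain ⟨μ, hμ⟩ : ∃ μ : ℕ → ℕ, ∀ w : ι → Fin 3,
      μ (sz (some ∘ w)) = finrank k (PW x ρ ω U (some ∘ w)) := ⟨_, hf.extend_apply 0⟩
  refine ⟨μ, fun w => ?_⟩
  generalize hn : fr w = n
  induction n generalizing w with
  | zero =>
    have h : ∀ i, ∃ c, w i = some c := fun i => Option.ne_none_iff_exists'.1
      (Finset.filter_eq_empty_iff.1 (Finset.card_eq_zero.1 hn) (Finset.mem_univ i))
    choose c hc using h
    obtain rfl : w = some ∘ c := funext hc
    exact (hμ c).symm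
  | succ n ih =>
    obtain ⟨i, hi⟩ := Finset.card_pos.1 (show 0 < fr w by omega)
    replace hi := (Finset.mem_filter.1 hi).2
    rw [split3 h3 hω (rho3 (F.cube i)) fun v hv => F.x_mem hU i hv]
    have h := fun c => ih _ (show fr (Function.update w i (some c)) = n by
      have := fr_update hi c; omega)
    rw [Finset.sum_congr rfl fun c _ => by rw [← PW_update U hi, h, sz_update hi]]
    simp +decide only [Fin.sum_univ_three, P3, if_true, if_false, add_zero]
    omega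

end Rep

section TR

variable {Ω : Type} [Fintype Ω] [DecidableEq Ω] {H : Type} [Group H] {π : H →* Perm Ω}
  {k : Type} [Field k] {V : Type} [AddCommGroup V] [Module k V] {ρ : Representation k H V} {ω : k}

theorem w3 (hω : ω ^ 2 + ω + 1 = 0) : ω ^ 3 = 1 := by linear_combination (ω - 1) * hω

theorem pw_add (hω : ω ^ 2 + ω + 1 = 0) (a b : Fin 3) :
    ω ^ ((a + b : Fin 3) : ℕ) = ω ^ (a : ℕ) * ω ^ (b : ℕ) := by
  rw [Fin.val_add, ← pow_eq_pow_mod _ (w3 hω), pow_add]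

theorem pw_inj (h3 : (3 : k) ≠ 0) (hω : ω ^ 2 + ω + 1 = 0) {a b : Fin 3}
    (h : ω ^ (a : ℕ) = ω ^ (b : ℕ)) : a = b := by
  have h1 : ω ≠ 1 := fun e => h3 (by rw [e] at hω; linear_combination hω)
  have := orderOf_eq_prime (w3 hω) h1
  exact Fin.ext (pow_injOn_Iio_orderOf (by simp [this]) (by simp [this]) h)

theorem eq_zero_of_Ei (h3 : (3 : k) ≠ 0) (hω : ω ^ 2 + ω + 1 = 0) {f : End k V} {a b : Fin 3}
    (h : a ≠ b) {v : V} (ha : v ∈ Ei ω f a) (hb : v ∈ Ei ω f b) : v = 0 := by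
  by_contra e
  exact h (pw_inj h3 hω (smul_left_injective k e ((mem_Ei.1 ha).symm.trans (mem_Ei.1 hb))))

theorem Ei_mul (hω : ω ^ 2 + ω + 1 = 0) {g h : H} {a b : Fin 3} {v : V} (ha : v ∈ Ei ω (ρ g) a)
    (hb : v ∈ Ei ω (ρ h) b) : v ∈ Ei ω (ρ (g * h)) (a + b) := by
  rw [mem_Ei, ap, mem_Ei.1 hb, map_smul, mem_Ei.1 ha, smul_smul, pw_add hω, mul_comm]

/-- The cyclic permutation of three blocks. -/
def gc : Perm (Fin 3 × Fin 3) := prodCongrLeft fun _ => finRotate 3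

/-- Representatives of the free orbits of the rotation of weights. -/
def rp8 : Fin 8 → Fin 3 → Fin 3 :=
  ![![1, 0, 0], ![2, 0, 0], ![1, 1, 0], ![1, 2, 0], ![2, 1, 0], ![2, 2, 0], ![1, 1, 2], ![2, 2, 1]]

/-- The weights of the free orbits, and a fixed weight. -/
def wt25 : Option (Fin 8 × Fin 3) → Fin 3 → Fin 3
  | none => fun _ => 1
  | some (r, n) => fun j => rp8 r (j - n)

theorem wt25_inj : Function.Injective wt25 := by decide +kernel

variable [FiniteDimensional k V] {β : Fin 3 × Fin 3 ↪ Ω} {x : Fin 3 → H} (F : Frm π β x)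
  (h3 : (3 : k) ≠ 0) (hω : ω ^ 2 + ω + 1 = 0) {U : Submodule k V} (hU : Inv π ρ (Set.range β) U)
  {g : H} (hg : π g = em β gc) (g3 : g ^ 3 = 1)
include F h3 hω hU hg g3

theorem Frm.tr_le (c : Fin 3) : finrank k ↥(U ⊓ Ei ω (ρ g) c) ≤ ∑ a, ∑ b, ∑ e,
    if a + b + e = c then finrank k (PW x ρ ω U (some ∘ ![a, b, e])) else 0 := by
  obtain ⟨h, hh⟩ := F.lift ((sign_em β (List.formPerm [(0, 1), (2, 0), (0, 2), (1, 0)] *
    List.formPerm [(1, 1), (2, 1), (2, 2), (1, 2)])).trans (by decide +kernel))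
  have c01 : Commute (x 0) (x 1) := F.comm 0 1
  have s3 : (x 0 * x 1 * x 2) ^ 3 = 1 := by
    rw [Commute.mul_pow (Commute.mul_left (F.comm 0 2) (F.comm 1 2)), c01.mul_pow, F.cube, F.cube,
      F.cube, one_mul, one_mul]
  have e : x 0 * x 1 * x 2 * h = h * g := F.rel s3 g3 (by
    rw [map_mul, map_mul, F.pi, F.pi, F.pi, ← em_cyc, ← em_cyc, ← em_cyc, hh, hg, ← map_mul,
      ← map_mul, ← map_mul, ← map_mul]
    exact congrArg _ (by decide +kernel))
  let Z := U ⊓ Ei ω (ρ (x 0 * x 1 * x 2)) c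
  have hZ : ∀ i, ∀ v ∈ Z, ρ (x i) v ∈ Z := fun i v hv => ⟨hU _ (F.supp i) v hv.1, Ei_conj
    (Commute.mul_left (Commute.mul_left (F.comm 0 i) (F.comm 1 i)) (F.comm 2 i)) hv.2⟩
  refine (finrank_le_of_map (ρ := ρ) (W := U ⊓ _) (W' := Z) h fun v hv =>
    ⟨hU _ (hh ▸ suppIn_em β _) v hv.1, Ei_conj e hv.2⟩).trans ?_
  rw [split3 h3 hω (rho3 (F.cube 0)) (hZ 0)]
  refine Finset.sum_le_sum fun a _ => ?_
  rw [split3 h3 hω (rho3 (F.cube 1)) (U := _ ⊓ _) fun v hv =>
    ⟨hZ 1 v hv.1, Ei_conj (F.comm 0 1) hv.2⟩]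
  refine Finset.sum_le_sum fun b _ => ?_
  rw [split3 h3 hω (rho3 (F.cube 2)) (U := _ ⊓ _ ⊓ _) fun v hv =>
    ⟨⟨hZ 2 v hv.1.1, Ei_conj (F.comm 0 2) hv.1.2⟩, Ei_conj (F.comm 1 2) hv.2⟩]
  refine Finset.sum_le_sum fun e _ => ?_
  split_ifs with hc
  · refine Submodule.finrank_mono fun v hv => mem_PW.2 ⟨hv.1.1.1.1, fun i d hd => ?_⟩
    fin_cases i <;> obtain rfl := Option.some.inj hd
    exacts [hv.1.1.2, hv.1.2, hv.2]
  · refine (Submodule.finrank_eq_zero.2 ((Submodule.eq_bot_iff _).2 fun v hv => ?_)).le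
    exact eq_zero_of_Ei h3 hω hc (Ei_mul hω (Ei_mul hω hv.1.1.2 hv.1.2) hv.2) hv.1.1.1.2

theorem Frm.tr_ge (c : Fin 3) : ∑ r, finrank k (PW x ρ ω U (some ∘ rp8 r)) +
    finrank k ↥(PW x ρ ω U (fun _ => some 1) ⊓ Ei ω (ρ g) c) ≤ finrank k ↥(U ⊓ Ei ω (ρ g) c) := by
  have gU : ∀ v ∈ U, ρ g v ∈ U := hU _ (hg ▸ suppIn_em β _)
  have mv : ∀ r n, ∀ v ∈ PW x ρ ω U (some ∘ wt25 (some (r, n))),
      ρ g v ∈ PW x ρ ω U (some ∘ wt25 (some (r, n + 1))) := fun r n v hv =>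
    F.move hω hv (gU v (mem_PW.1 hv).1) fun i d hd => ⟨i - 1, 1, one_ne_zero, by
      rw [one_mul, ← hd]; simp only [Function.comp_apply, wt25]; congr 2; abel, fun a => by
      rw [hg, em_apply, (by decide : ∀ i a : Fin 3, gc (i - 1, a) = (i, 1 * a))]⟩
  let φ : End k V := 1 + ω ^ (2 * c : ℕ) • ρ g + ω ^ (c : ℕ) • (ρ g * ρ g)
  let Φ : ((r : Fin 8) → PW x ρ ω U (some ∘ rp8 r)) ×
      ↥(PW x ρ ω U (fun _ => some 1) ⊓ Ei ω (ρ g) c) →ₗ[k] V :=
    (∑ r, φ ∘ₗ Submodule.subtype _ ∘ₗ LinearMap.proj r).coprod (Submodule.subtype _)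
  have hΦ : ∀ u, Φ u = u.2 + ∑ r, ((u.1 r : V) + ω ^ (2 * c : ℕ) • ρ g (u.1 r) +
      ω ^ (c : ℕ) • ρ g (ρ g (u.1 r))) := fun u => by
    simp [Φ, φ, add_comm]
  have inj : Function.Injective Φ := (injective_iff_map_eq_zero _).2 fun u hu => by
    let y : Option (Fin 8 × Fin 3) → V := fun i => match i with
      | none => u.2
      | some (r, n) => ![(u.1 r : V), ω ^ (2 * c : ℕ) • ρ g (u.1 r), ω ^ (c : ℕ) • ρ g (ρ g (u.1 r))] n
    have hy : ∀ i, y i ∈ PW x ρ ω U (some ∘ wt25 i) := fun i => by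
      obtain _ | ⟨r, n⟩ := i
      · exact u.2.2.1
      have h0 : (u.1 r : V) ∈ PW x ρ ω U (some ∘ wt25 (some (r, 0))) := by
        simpa only [wt25, sub_zero] using (u.1 r).2
      fin_cases n
      exacts [h0, Submodule.smul_mem _ _ (mv r 0 _ h0), Submodule.smul_mem _ _ (mv r 1 _ (mv r 0 _ h0))]
    have := H22.eq_zero_of_sum_wt (fun j => ρ (x j)) (fun i j => ω ^ (wt25 i j : ℕ)) Finset.univ
      (fun a _ b _ e => wt25_inj (funext fun j => pw_inj h3 hω (congrFun e j))) y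
      (fun i _ j => mem_Ei.1 ((mem_PW.1 (hy i)).2 j _ rfl)) (by
        rw [← hu, hΦ, Fintype.sum_option, Fintype.sum_prod_type]
        simp only [Fin.sum_univ_three]; rfl)
    exact Prod.ext (funext fun r => Subtype.ext (this (some (r, 0)) (Finset.mem_univ _)))
      (Subtype.ext (this none (Finset.mem_univ _)))
  have := LinearMap.finrank_range_of_inj inj
  rw [finrank_prod, finrank_pi_fintype] at this
  rw [← this]
  refine Submodule.finrank_mono ?_
  rintro _ ⟨u, rfl⟩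
  rw [hΦ]
  refine add_mem ⟨(mem_PW.1 u.2.2.1).1, u.2.2.2⟩ (sum_mem fun r _ => ?_)
  have h0 := (mem_PW.1 (u.1 r).2).1
  refine ⟨add_mem (add_mem h0 (U.smul_mem _ (gU _ h0))) (U.smul_mem _ (gU _ (gU _ h0))), mem_Ei.2 ?_⟩
  have : ω ^ (c : ℕ) * ω ^ (2 * c : ℕ) = 1 := by
    rw [← pow_add, show (c : ℕ) + 2 * c = 3 * c by ring, pow_mul, w3 hω, one_pow]
  simp only [map_add, map_smul, rho3 g3, smul_add, smul_smul, this, one_smul, ← pow_add, ← two_mul]
  abel

theorem Frm.tr3 {ν : ℕ → ℕ}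
    (hν : ∀ w : Fin 3 → Fin 3, finrank k (PW x ρ ω U (some ∘ w)) = ν (sz (some ∘ w))) :
    2 * ν 1 + finrank k ↥(PW x ρ ω U (fun _ => some 1) ⊓ Ei ω (ρ g) 0) ≤ ν 0 + 2 * ν 2 ∧
      ν 2 ≤ ν 1 + ν 3 := by
  have h0 := (F.tr_ge h3 hω hU hg g3 0).trans (F.tr_le h3 hω hU hg g3 0)
  have h1 := (F.tr_ge h3 hω hU hg g3 1).trans (F.tr_le h3 hω hU hg g3 1)
  have e1 : ∀ r, sz (some ∘ rp8 r) = ![1, 1, 2, 2, 2, 2, 3, 3] r := by decide +kernel
  have e2 : ∀ a b e : Fin 3, sz (some ∘ ![a, b, e]) = (if a = 0 then 0 else 1) +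
    (if b = 0 then 0 else 1) + if e = 0 then 0 else 1 := by decide +kernel
  simp +decide only [hν, e1, e2, Fin.sum_univ_eight, Fin.sum_univ_three, if_true, if_false,
    Matrix.cons_val, Nat.reduceAdd] at h0 h1
  omega

end TR

section Gen

variable {Ω : Type} [Fintype Ω] [DecidableEq Ω] {H : Type} [Group H] {π : H →* Perm Ω}
  {k : Type} [Field k] {V : Type} [AddCommGroup V] [Module k V] {ρ : Representation k H V} {ω : k}
  [FiniteDimensional k V]

/-- The blocks selected by `f`. -/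
abbrev sub3 {ι κ : Type} (β : ι × Fin 3 ↪ Ω) (f : κ ↪ ι) : κ × Fin 3 ↪ Ω :=
  (f.prodMap (Function.Embedding.refl _)).trans β

/-- The trace inequalities on three free blocks. -/
theorem Frm.tr {ι : Type} [Fintype ι] [DecidableEq ι] {β : ι × Fin 3 ↪ Ω} {x : ι → H}
    (F : Frm π β x) (h3 : (3 : k) ≠ 0) (hω : ω ^ 2 + ω + 1 = 0) {U : Submodule k V}
    (hU : Inv π ρ (Set.range β) U) {μ : ℕ → ℕ}
    (hμ : ∀ w, finrank k (PW x ρ ω U w) = P3 μ (fr w) (sz w)) (f : Fin 3 ↪ ι)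
    {w : ι → Option (Fin 3)} (hw : ∀ a, w (f a) = none) (hf : fr w = 3)
    {g : H} (hg : π g = em (sub3 β f) gc) (g3 : g ^ 3 = 1) :
    2 * μ (sz w + 1) + finrank k ↥(PW x ρ ω U (Function.update (Function.update (Function.update w
      (f 0) (some 1)) (f 1) (some 1)) (f 2) (some 1)) ⊓ Ei ω (ρ g) 0) ≤
      μ (sz w) + 2 * μ (sz w + 2) ∧ μ (sz w + 2) ≤ μ (sz w + 1) + μ (sz w + 3) := by
  have n1 : ∀ a, Function.update w (f 0) (some a) (f 1) = none := fun a => by simp [hw]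
  have n2 : ∀ a b, Function.update (Function.update w (f 0) (some a)) (f 1) (some b) (f 2) = none :=
    fun a b => by
      rw [Function.update_of_ne (by simp), Function.update_of_ne (by simp), hw]
  have e : ∀ u : Fin 3 → Fin 3, PW (fun j => x (f j)) ρ ω (PW x ρ ω U w) (some ∘ u) =
      PW x ρ ω U (Function.update (Function.update (Function.update w (f 0) (some (u 0))) (f 1)
        (some (u 1))) (f 2) (some (u 2))) := fun u => by
    rw [PW_update U (n2 _ _), PW_update U (n1 _), PW_update U (hw 0)]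
    ext v
    simp [mem_PW (w := some ∘ u), Fin.forall_fin_succ, and_assoc]
  have h := (F.sub f).tr3 h3 hω (U := PW x ρ ω U w) (F.inv hω (hU.mono (by
    rintro _ ⟨a, rfl⟩; exact ⟨_, rfl⟩)) fun i c hi a => by
      rintro ⟨b, hb⟩
      obtain rfl : f b.1 = i := congrArg Prod.fst (β.injective hb)
      simp [hw] at hi) hg g3 (ν := fun j => μ (sz w + j)) fun u => by
    have a0 := fr_update (hw 0) (u 0)
    have a1 := fr_update (n1 (u 0)) (u 1)
    have a2 := fr_update (n2 (u 0) (u 1)) (u 2)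
    rw [e, hμ, sz_update (n2 _ _), sz_update (n1 _), sz_update (hw 0), show fr _ = 0 by omega, P3,
      (by decide +kernel : ∀ u : Fin 3 → Fin 3, sz (some ∘ u) = (if u 0 = 0 then 0 else 1) +
        (if u 1 = 0 then 0 else 1) + if u 2 = 0 then 0 else 1), add_assoc, add_assoc, add_assoc]
  exact e (fun _ => 1) ▸ h

theorem Cv.exists_gc (C : Cv π) (β : Fin 3 × Fin 3 ↪ Ω) : ∃ g, π g = em β gc ∧ g ^ 3 = 1 :=
  C.lift3 ((sign_em β _).trans (by decide +kernel)) (by
    rw [← map_pow, (by decide +kernel : gc ^ 3 = 1), map_one])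

variable [IsAlgClosed k]

/-- A group `3² : 4` whose normal subgroup acts non-trivially needs four dimensions. -/
theorem four_of_rel (h3 : (3 : k) ≠ 0) {W : Submodule k V} {x y u : H} (x3 : x ^ 3 = 1)
    (y3 : y ^ 3 = 1) (c : Commute x y) (ux : u⁻¹ * x * u = y ^ 2) (uy : u⁻¹ * y * u = x)
    (hx : ∀ v ∈ W, ρ x v ∈ W) (hy : ∀ v ∈ W, ρ y v ∈ W) (hu : ∀ v ∈ W, ρ u v ∈ W)
    (h : ¬ ∀ v ∈ W, ρ x v = v) : 4 ≤ finrank k W := by
  have h4 : ∀ s : Fin 2, ![x, y] s ^ 3 = 1 := fun s => by fin_cases s <;> assumption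
  obtain ⟨χ, h1, hχ⟩ := exists_wt (ρ := ρ) (W := W) (a := ![x, y])
    (fun s t => by fin_cases s <;> fin_cases t <;> simp [c, c.symm])
    (fun s => ⟨3, by simpa using h3, h4 s⟩) (fun s => by fin_cases s <;> assumption) 0 h
  have mv : ∀ α β : k, Wt ρ W ![x, y] ![α, β] → Wt ρ W ![x, y] ![β ^ 2, α] := fun α β h =>
    h.move u hu fun v e s => by
      have e0 : ρ x v = α • v := e 0
      have e1 : ρ y v = β • v := e 1
      fin_cases s
      · exact ux ▸ rho_pow e1 2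
      · exact uy ▸ e0
  have a3 := hχ.pow (h4 0)
  obtain ⟨α, β, rfl⟩ : ∃ α β, χ = ![α, β] := ⟨χ 0, χ 1, by ext s; fin_cases s <;> rfl⟩
  refine card_le_of_wt (ρ := ρ) (a := ![x, y]) _ (three_inj (β := β) h1 a3) fun i => ?_
  fin_cases i
  exacts [hχ, mv _ _ hχ, mv _ _ (mv _ _ hχ), mv _ _ (mv _ _ (mv _ _ hχ))]

/-- A group `5 : 4` whose normal subgroup acts non-trivially needs four dimensions. -/
theorem four_of_five (h5 : (5 : k) ≠ 0) {W : Submodule k V} {y u : H} (y5 : y ^ 5 = 1)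
    (uy : u⁻¹ * y * u = y ^ 2) (hy : ∀ v ∈ W, ρ y v ∈ W) (hu : ∀ v ∈ W, ρ u v ∈ W)
    (h : ¬ ∀ v ∈ W, ρ y v = v) : 4 ≤ finrank k W := by
  obtain ⟨χ, h1, hχ⟩ := exists_wt (ρ := ρ) (W := W) (a := fun _ : Unit => y)
    (fun _ _ => Commute.refl _) (fun _ => ⟨5, by simpa using h5, y5⟩) (fun _ => hy) () h
  have mv : ∀ α : k, Wt ρ W (fun _ : Unit => y) (fun _ => α) →
      Wt ρ W (fun _ : Unit => y) (fun _ => α ^ 2) := fun α h =>
    h.move u hu fun v e _ => uy ▸ rho_pow (e ()) 2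
  obtain ⟨a1, a2, a3, a4, a5, a6⟩ := five_ne h1 (hχ.pow (s := ()) y5)
  refine card_le_of_wt (ρ := ρ) (a := fun _ : Unit => y) (ι := Fin 4)
    (fun i _ => ![χ (), χ () ^ 2, (χ () ^ 2) ^ 2, ((χ () ^ 2) ^ 2) ^ 2] i) (fun i j e => ?_)
    fun i => ?_
  · have e := congrFun e ()
    fin_cases i <;> fin_cases j <;> first | rfl | exact absurd e ‹_› | exact absurd e.symm ‹_›
  · fin_cases i
    exacts [hχ, mv _ hχ, mv _ (mv _ hχ), mv _ (mv _ (mv _ hχ))]

end Gen

end H40.AS
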