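/- ALTSEC: alternating sections of the groups of type E6. -/
import Cfsg.Agent.H40.ASMain
import Cfsg.Agent.H71.ASRed
import Cfsg.Agent.H79.AM1
import Cfsg.Agent.H26.ASE6
import Cfsg.Agent.H68.TwE6

set_option autoImplicit false

universe u

namespace H40.AS

open Equiv Module Cfsg.Lie

theorem red : Red :=
  H71.AS.jobRed (sec_all (by norm_num)) (H79.AM.jobM (sec_all le_rfl)).1
    (H79.AM.jobM (sec_all le_rfl)).2

theorem e6_le_eleven {F : Type u} [Field F] [Fintype F] (p : ℕ) [Fact p.Prime] [CharP F p]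
    (h2 : p ≠ 2) (h3 : p ≠ 3) {r : ℕ} {H : Subgroup (chevE6.group F)} {K : Subgroup H} [K.Normal]
    (h : Nonempty (H ⧸ K ≃* alternatingGroup (Fin r))) : r ≤ 11 := by
  by_contra hr
  obtain ⟨L, hL, _, π, hπ⟩ := H26.ASE.jobCov F p r 12 (by omega) H K h
  refine red L π hπ p (Kb p) (by simpa using ne_zero_of_ne (k := Kb p) p Nat.prime_two h2)
    (by simpa using ne_zero_of_ne (k := Kb p) p Nat.prime_three h3) _ (natRep L.subtype) (by simp)
    (fun g hg => Subtype.ext (natRep_eq_one hg)) fun s hs e he h1 => ?_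
  exact H26.ASE.jobF p s (hL s.2) (fun e => hs (Subtype.ext e)) e he (congrArg Subtype.val h1)

theorem e6_main (J : Job13.{u}) {F : Type u} [Field F] [Fintype F] (p : ℕ) [Fact p.Prime]
    [CharP F p] (r : ℕ) (H : Subgroup (chevE6.group F)) (K : Subgroup H) [K.Normal]
    (h : Nonempty (H ⧸ K ≃* alternatingGroup (Fin r))) :
    r ≤ 11 + (if p = 2 ∨ p = 3 ∨ p = 5 then 1 else 0) := by
  split_ifs with hp
  · exact J F p (by omega) r H K h
  · exact e6_le_eleven p (by tauto) (by tauto) h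

/-- Sections of a smaller group. -/
theorem sec_of_le {G S : Type*} [Group G] [Group S] {A B : Subgroup G} (hAB : A ≤ B)
    {H : Subgroup A} {N : Subgroup H} [N.Normal] (h : Nonempty (H ⧸ N ≃* S)) :
    ∃ (H' : Subgroup B) (N' : Subgroup H') (_ : N'.Normal), Nonempty (H' ⧸ N' ≃* S) := by
  obtain ⟨e⟩ := h
  let ψ := (H.equivMapOfInjective _ (Subgroup.inclusion_injective hAB)).symm
  let f := e.toMonoidHom.comp ((QuotientGroup.mk' N).comp ψ.toMonoidHom)
  exact ⟨_, f.ker, inferInstance, ⟨QuotientGroup.quotientKerEquivOfSurjective f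
    (e.surjective.comp ((QuotientGroup.mk'_surjective N).comp ψ.surjective))⟩⟩

theorem tw_main (J : Job13.{u}) {K : Type u} [Field K] [Fintype K] (p a : ℕ) [Fact p.Prime]
    [CharP K p] (ha : 1 ≤ a) (hK : Fintype.card K = (p ^ a) ^ 2) (r : ℕ)
    (H : Subgroup (twistedE6 K (p ^ a))) (N : Subgroup H) [N.Normal]
    (h : Nonempty (H ⧸ N ≃* alternatingGroup (Fin r))) :
    r ≤ 11 + (if p = 2 ∨ p = 3 ∨ p = 5 then 1 else 0) := by
  have hq : IsPrimePow (p ^ a) := (Fact.out : p.Prime).isPrimePow.pow (by omega)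
  obtain ⟨H', N', _, h'⟩ := sec_of_le (B := chevE6.group K)
    (((H68.isTw_E6 hq hK).le_fix.trans (H68.TwG.Fix_le _)).trans H68.mat_Gp.le) h
  exact e6_main J p r H' N' h'

end H40.AS
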