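/- ALTSEC: small modules of `A₁₈` and of its double cover. -/
import Cfsg.Agent.H40.ASK3

set_option autoImplicit false

namespace H40.AS

open Equiv Equiv.Perm Module H57 H79.AM

section Gen

variable {Ω : Type} [Fintype Ω] [DecidableEq Ω] {H : Type} [Group H] {π : H →* Perm Ω}
  {k : Type} [Field k] {V : Type} [AddCommGroup V] [Module k V] {ρ : Representation k H V} {ω : k}
  {ι : Type} [Fintype ι] [DecidableEq ι] {β : ι × Fin 3 ↪ Ω} {x : ι → H} {U : Submodule k V}

variable [FiniteDimensional k V]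

omit [Fintype ι] in
theorem not_triv_of_pos (h3 : (3 : k) ≠ 0) (hω : ω ^ 2 + ω + 1 = 0) {w : ι → Option (Fin 3)} {i : ι}
    (hi : w i = none) (h : 0 < finrank k (PW x ρ ω U (Function.update w i (some 1)))) :
    ¬ ∀ v ∈ PW x ρ ω U w, ρ (x i) v = v := fun e => by
  rw [PW_update U hi] at h
  refine h.ne' (Submodule.finrank_eq_zero.2 ((Submodule.eq_bot_iff _).2 fun v hv => ?_))
  exact eq_zero_of_Ei h3 hω (a := 0) (by decide) (mem_Ei.2 (by simpa using e v hv.1)) hv.2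

theorem pos_of_not_triv {μ : ℕ → ℕ} (hμ : ∀ w, finrank k (PW x ρ ω U w) = P3 μ (fr w) (sz w))
    {w : ι → Option (Fin 3)} {i : ι} (hi : w i = none)
    (h : ¬ ∀ v ∈ PW x ρ ω U w, ρ (x i) v = v) :
    0 < finrank k (PW x ρ ω U (Function.update w i (some 1))) := by
  by_contra h0
  have e := Submodule.eq_of_le_of_finrank_eq (S₁ := PW x ρ ω U (Function.update w i (some 0)))
    (S₂ := PW x ρ ω U w) (by rw [PW_update U hi]; exact inf_le_left) (by
      rw [hμ, sz_update hi, show fr _ = fr (Function.update w i (some 0)) by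
        have := fr_update hi 0; have := fr_update hi 1; omega] at h0
      rw [hμ, hμ, ← fr_update hi 0, sz_update hi, P3]
      simp at h0 ⊢; exact h0)
  rw [PW_update U hi] at e
  exact h fun v hv => by simpa using mem_Ei.1 (e.ge hv).2

omit [FiniteDimensional k V] in
/-- Permutations of the blocks that fix a weight preserve its space. -/
theorem Frm.blk (F : Frm π β x) (hω : ω ^ 2 + ω + 1 = 0) (hU : Inv π ρ (Set.range β) U)
    {σ : Perm ι} {g : H} (hg : π g = em β (prodCongrLeft fun _ => σ)) {w : ι → Option (Fin 3)}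
    (hw : ∀ j, w (σ j) = w j) : ∀ v ∈ PW x ρ ω U w, ρ g v ∈ PW x ρ ω U w := fun v hv =>
  F.move hω hv (hU g (hg ▸ suppIn_em β _) v (mem_PW.1 hv).1) fun i c hc =>
    ⟨σ.symm i, 1, one_ne_zero, by rw [← hw, one_mul, apply_symm_apply, hc], fun a => by
      rw [hg, em_apply, prodCongrLeft_apply, apply_symm_apply, one_mul]⟩

omit [Fintype ι] in
theorem eig_three_le {ρ : Representation k (alternatingGroup Ω) V} (h5 : 5 ≤ Fintype.card Ω)
    {y : alternatingGroup Ω} (hy : (y : Perm Ω).IsThreeCycle) {x : ι → alternatingGroup Ω}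
    (F : Frm (alternatingGroup Ω).subtype β x) (i : ι) : finrank k (End.eigenspace (ρ y) ω) ≤
      finrank k (PW x ρ ω ⊤ (Function.update (fun _ => none) i (some 1))) := by
  have : (x i : Perm Ω).IsThreeCycle := by
    rw [show (x i : Perm Ω) = _ from F.pi i]
    exact isThreeCycle_swap_mul_swap_same (by simp) (by simp) (by simp)
  obtain ⟨g, hg⟩ := isConj_iff.1 (alternatingGroup.isThreeCycle_isConj (by simpa using h5) hy this)
  rw [PW_update _ rfl, PW_none, top_inf_eq]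
  exact finrank_le_of_map g fun v hv =>
    Ei_conj (mul_inv_eq_iff_eq_mul.1 hg).symm (c := 1) (by simpa using hv)

end Gen

section Six

variable {Ω : Type} [Fintype Ω] [DecidableEq Ω] {H : Type} [Group H] {π : H →* Perm Ω}
  {k : Type} [Field k] {V : Type} [AddCommGroup V] [Module k V] {ρ : Representation k H V} {ω : k}
  {β : Fin 6 × Fin 3 ↪ Ω} {x : Fin 6 → H} [FiniteDimensional k V] [IsAlgClosed k]

/-- The last three blocks. -/
def f345 : Fin 3 ↪ Fin 6 := ⟨![3, 4, 5], by decide⟩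

theorem em_gc : em (sub3 β f345) gc =
    em β (prodCongrLeft fun _ => List.formPerm [3, 4, 5]) := by
  have e : ∀ τ : Perm (Fin 3 × Fin 3), em (sub3 β f345) τ =
      em β (em (f345.prodMap (Function.Embedding.refl _)) τ) := fun τ => by
    ext y
    by_cases h : y ∈ Set.range (sub3 β f345)
    · obtain ⟨a, rfl⟩ := h
      rw [em_apply]
      exact ((em_apply β _ _).trans (congrArg β (em_apply _ τ a))).symm
    · rw [suppIn_em _ _ y h]
      by_cases h' : y ∈ Set.range β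
      · obtain ⟨a, rfl⟩ := h'
        rw [em_apply, suppIn_em _ _ a fun ⟨b, hb⟩ => h ⟨b, congrArg β hb⟩]
      · rw [suppIn_em _ _ y h']
  rw [e]
  congr 1
  ext1 y
  by_cases h : y ∈ Set.range (f345.prodMap (Function.Embedding.refl (Fin 3)))
  · obtain ⟨a, rfl⟩ := h
    rw [em_apply]
    revert a; decide +kernel
  · rw [suppIn_em _ _ y h]
    revert y; decide +kernel

theorem P3_six (μ : ℕ → ℕ) :
    P3 μ 6 0 = μ 0 + 12 * μ 1 + 60 * μ 2 + 160 * μ 3 + 240 * μ 4 + 192 * μ 5 + 64 * μ 6 ∧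
    P3 μ 5 1 = μ 1 + 10 * μ 2 + 40 * μ 3 + 80 * μ 4 + 80 * μ 5 + 32 * μ 6 ∧
    P3 μ 3 3 = μ 3 + 6 * μ 4 + 12 * μ 5 + 8 * μ 6 := by
  simp only [P3, Nat.reduceAdd]
  exact ⟨by ring, by ring, by ring⟩

theorem arith_six {m0 m1 m2 m3 m4 m5 m6 e0 e1 e2 e3 : ℕ}
    (hd : m0 + 12 * m1 + 60 * m2 + 160 * m3 + 240 * m4 + 192 * m5 + 64 * m6 ≤ 248)
    (t0 : 2 * m1 + e0 ≤ m0 + 2 * m2 ∧ m2 ≤ m1 + m3) (t1 : 2 * m2 + e1 ≤ m1 + 2 * m3 ∧ m3 ≤ m2 + m4)
    (t2 : 2 * m3 + e2 ≤ m2 + 2 * m4 ∧ m4 ≤ m3 + m5) (t3 : 2 * m4 + e3 ≤ m3 + 2 * m5 ∧ m5 ≤ m4 + m6)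
    (h6 : m3 = 0 → m5 = 0 → 0 < m6 → 4 ≤ m6) : m3 + 6 * m4 + 12 * m5 + 8 * m6 = 0 ∧
      m1 + 10 * m2 + 40 * m3 + 80 * m4 + 80 * m5 + 32 * m6 ≤ 29 := by
  obtain rfl : m4 = 0 := by
    by_contra h
    obtain rfl : m4 = 1 := by omega
    obtain rfl : m3 = 0 := by omega
    omega
  obtain rfl : m5 = 0 := by
    by_contra h
    obtain rfl : m5 = 1 := by omega
    omega
  obtain rfl : m3 = 0 := by
    by_contra h
    obtain rfl : m3 = 1 := by omega
    omega
  obtain rfl : m6 = 0 := by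
    have := h6 rfl rfl
    omega
  obtain rfl | rfl | rfl : m2 = 0 ∨ m2 = 1 ∨ m2 = 2 := by omega
  all_goals omega

theorem Frm.six (F : Frm π β x) (h3 : (3 : k) ≠ 0) (hω : ω ^ 2 + ω + 1 = 0)
    (hd : finrank k V ≤ 248) : ∃ μ : ℕ → ℕ,
      (∀ w, finrank k (PW x ρ ω ⊤ w) = P3 μ (fr w) (sz w)) ∧ P3 μ 3 3 = 0 ∧ P3 μ 5 1 ≤ 29 := by
  obtain ⟨μ, hμ⟩ := F.exists_mu hω h3 (by simp) (inv_top (ρ := ρ) _)
  obtain ⟨g, hg, g3⟩ := F.exists_gc (sub3 β f345)
  have t := fun (a b c : Fin 3) => F.tr h3 hω (inv_top _) hμ f345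
    (w := ![some a, some b, some c, none, none, none]) (by revert a b c; decide)
    (by revert a b c; decide) hg g3
  have t0 := t 0 0 0
  have t1 := t 1 0 0
  have t2 := t 1 1 0
  have t3 := t 1 1 1
  rw [show sz _ = 0 by decide] at t0
  rw [show sz _ = 1 by decide] at t1
  rw [show sz _ = 2 by decide] at t2
  rw [show sz _ = 3 by decide, show Function.update (Function.update (Function.update
    ![some 1, some 1, some 1, none, none, none] (f345 0) (some 1)) (f345 1) (some 1)) (f345 2)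
    (some (1 : Fin 3)) = fun _ => some 1 by decide] at t3
  have n := hμ fun _ => none
  rw [PW_none, finrank_top, show fr _ = 6 by decide, show sz _ = 0 by decide] at n
  have m := hμ fun _ => some 1
  rw [show fr _ = 0 by decide, show sz _ = 6 by decide, P3] at m
  have h6 : μ 3 = 0 → μ 5 = 0 → 0 < μ 6 → 4 ≤ μ 6 := fun a b c => by
    rw [em_gc] at hg
    obtain ⟨y, hy, y3⟩ := F.lift3 (σ := em β (prodCongrLeft fun _ => List.formPerm [0, 1, 2]))
      ((sign_em β _).trans (by decide +kernel)) (by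
        rw [← map_pow]; exact (congrArg _ (by decide +kernel)).trans (map_one _))
    obtain ⟨u, hu⟩ := F.lift (σ := em β (prodCongrLeft fun _ =>
      List.formPerm [3, 0, 4, 1] * swap 5 2)) ((sign_em β _).trans (by decide +kernel))
    refine m ▸ four_of_rel h3 g3 y3 (F.rel g3 g3 ?_) (u := u) ?_ ?_
      (F.blk hω (inv_top _) hg fun _ => rfl) (F.blk hω (inv_top _) hy fun _ => rfl)
      (F.blk hω (inv_top _) hu fun _ => rfl) fun e => ?_
    · rw [hg, hy, ← map_mul, ← map_mul]; exact congrArg _ (by decide +kernel)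
    · rw [mul_assoc, F.rel g3 (cube_sq y3) (by
        rw [map_mul, hg, hy, hu, ← map_mul, ← map_mul, ← map_mul]
        exact congrArg _ (by decide +kernel)), inv_mul_cancel_left, sq]
    · rw [mul_assoc, F.rel y3 g3 (by
        rw [hg, hy, hu, ← map_mul, ← map_mul]
        exact congrArg _ (by decide +kernel)), inv_mul_cancel_left]
    · rw [inf_eq_left.2 fun v hv => mem_Ei.2 (by simpa using e v hv), m, a, b] at t3
      have := t3.1
      omega
  refine ⟨μ, hμ, ?_⟩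
  rw [(P3_six μ).2.1, (P3_six μ).2.2]
  exact arith_six ((P3_six μ).1 ▸ n ▸ hd) t0 t1 t2 t3 h6

end Six

/-- Six blocks of three points. -/
def b18 : Fin 6 × Fin 3 ↪ Fin 18 := (finProdFinEquiv : Fin 6 × Fin 3 ≃ Fin (6 * 3)).toEmbedding

theorem jobM18 : JobM18 := by
  intro p _ h3 V _ _ _ ρ hd y hy ω hω
  obtain ⟨x, F⟩ := cv_alt.frm b18
  obtain ⟨μ, hμ, -, h⟩ := F.six (ρ := ρ)
    (by simpa using ne_zero_of_ne (k := Kb p) p Nat.prime_three h3) hω hd
  refine (eig_three_le (by simp) hy F 0).trans ?_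
  rwa [hμ, show fr _ = 5 by decide, show sz _ = 1 by decide]

theorem exists_omega (k : Type) [Field k] [IsAlgClosed k] : ∃ ω : k, ω ^ 2 + ω + 1 = 0 := by
  obtain ⟨ω, h⟩ := IsAlgClosed.exists_root (Polynomial.X ^ 2 + Polynomial.X + 1 : Polynomial k)
    (by rw [show (Polynomial.X ^ 2 + Polynomial.X + 1 : Polynomial k).degree = 2 by compute_degree!]
        decide)
  exact ⟨ω, by simpa using h⟩

theorem jobS18 : JobS18 := by
  intro p _ h2 h3 H _ z π D V _ _ _ _ ρ hz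
  by_contra hd
  obtain ⟨ω, hω⟩ := exists_omega (Kb p)
  obtain ⟨x, F⟩ := (cv_dc D).frm b18
  obtain ⟨μ, hμ, h, -⟩ := F.six (ρ := ρ)
    (by simpa using ne_zero_of_ne (k := Kb p) p Nat.prime_three h3) hω (by omega)
  have c : ∀ i : Fin 6, i ≤ 2 → 5 ≤ (Finset.univ.filter fun y : Fin 18 => 3 * i.val ≤ y.val).card ∧
      (∀ j a, ¬ i ≤ j → b18 (j, a) ∉ Finset.univ.filter fun y : Fin 18 => 3 * i.val ≤ y.val) ∧
      (∀ y ∉ Finset.univ.filter fun y : Fin 18 => 3 * i.val ≤ y.val,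
        cyc (b18 (i, 1)) (b18 (i, 2)) (b18 (i, 0)) y = y) ∧
      cyc (b18 (i, 1)) (b18 (i, 2)) (b18 (i, 0)) ≠ 1 := by decide +kernel
  have st : ∀ (i : Fin 6) (w : Fin 6 → Option (Fin 3)), i ≤ 2 → (∀ j, w j = none ↔ i ≤ j) →
      0 < finrank (Kb p) (PW x ρ ω ⊤ w) →
      0 < finrank (Kb p) (PW x ρ ω ⊤ (Function.update w i (some 1))) := fun i w hi hw h0 =>
    pos_of_not_triv hμ ((hw i).2 le_rfl) fun e => (c i hi).2.2.2 (F.pi i ▸ spin_fai D
      (by simpa using ne_zero_of_ne (k := Kb p) p Nat.prime_two h2) hz (c i hi).1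
      (F.inv hω (inv_top _) fun j d hj a => (c i hi).2.1 j a fun e => by simp [(hw j).2 e] at hj)
      (Submodule.one_le_finrank_iff.1 h0) (x i) (F.pi i ▸ (c i hi).2.2.1) e)
  have := st 2 _ le_rfl (by decide) (st 1 _ (by decide) (by decide) (st 0 (fun _ => none) (by decide)
    (by decide) (by rw [PW_none, finrank_top]; exact finrank_pos)))
  rw [hμ, show fr _ = 3 by decide, show sz _ = 3 by decide] at this
  omega

end H40.AS
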