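/- ALTSEC: small modules of `A₁₄` and spin modules of `2.A₁₅`. -/
import Cfsg.Agent.H40.ASM18

set_option autoImplicit false

namespace H40.AS

open Equiv Equiv.Perm Module H57 H79.AM

local notation "sb" => Subgroup.subtype (alternatingGroup _)

theorem em_trans {α γ Ω : Type} [Fintype α] [DecidableEq α] [Fintype γ] [DecidableEq γ] [Fintype Ω]
    [DecidableEq Ω] (f : α ↪ γ) (β : γ ↪ Ω) (τ : Perm α) : em (f.trans β) τ = em β (em f τ) := by
  ext y
  by_cases h : y ∈ Set.range (f.trans β)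
  · obtain ⟨a, rfl⟩ := h
    rw [em_apply]
    exact ((em_apply β _ _).trans (congrArg β (em_apply _ τ a))).symm
  · rw [suppIn_em _ _ y h]
    by_cases h' : y ∈ Set.range β
    · obtain ⟨a, rfl⟩ := h'
      rw [em_apply, suppIn_em _ _ a fun ⟨b, hb⟩ => h ⟨b, congrArg β hb⟩]
    · rw [suppIn_em _ _ y h']

/-- Five blocks of three points. -/
def b15 : Fin 5 × Fin 3 ↪ Fin 15 := (finProdFinEquiv : Fin 5 × Fin 3 ≃ Fin (5 * 3)).toEmbedding

/-- The last three blocks. -/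
def f234 : Fin 3 ↪ Fin 5 := ⟨![2, 3, 4], by decide⟩

theorem em_gc5 : em (sub3 b15 f234) gc =
    em b15 (prodCongrLeft fun _ => List.formPerm [2, 3, 4]) := by
  rw [em_trans]
  congr 1
  ext1 y
  by_cases h : y ∈ Set.range (f234.prodMap (Function.Embedding.refl (Fin 3)))
  · obtain ⟨a, rfl⟩ := h
    rw [em_apply]
    revert a; decide +kernel
  · rw [suppIn_em _ _ y h]
    revert y; decide +kernel

theorem s15 (p : ℕ) [Fact p.Prime] (h2 : p ≠ 2) (h3 : p ≠ 3) : SPAt p 15 56 := by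
  intro H _ z π D V _ _ _ _ ρ hz
  by_contra hd
  obtain ⟨ω, hω⟩ := exists_omega (Kb p)
  obtain ⟨x, F⟩ := (cv_dc D).frm b15
  replace h3 : (3 : Kb p) ≠ 0 := by simpa using ne_zero_of_ne (k := Kb p) p Nat.prime_three h3
  obtain ⟨μ, hμ⟩ := F.exists_mu hω h3 (by simp) (inv_top (ρ := ρ) _)
  have c : ∀ i : Fin 5, i ≤ 3 → 5 ≤ (Finset.univ.filter fun y : Fin 15 => 3 * i.val ≤ y.val).card ∧
      (∀ j a, ¬ i ≤ j → b15 (j, a) ∉ Finset.univ.filter fun y : Fin 15 => 3 * i.val ≤ y.val) ∧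
      (∀ y ∉ Finset.univ.filter fun y : Fin 15 => 3 * i.val ≤ y.val,
        cyc (b15 (i, 1)) (b15 (i, 2)) (b15 (i, 0)) y = y) ∧
      cyc (b15 (i, 1)) (b15 (i, 2)) (b15 (i, 0)) ≠ 1 := by decide +kernel
  have st : ∀ (i : Fin 5) (w : Fin 5 → Option (Fin 3)), i ≤ 3 → (∀ j, w j = none ↔ i ≤ j) →
      0 < finrank (Kb p) (PW x ρ ω ⊤ w) →
      0 < finrank (Kb p) (PW x ρ ω ⊤ (Function.update w i (some 1))) := fun i w hi hw h0 =>
    pos_of_not_triv hμ ((hw i).2 le_rfl) fun e => (c i hi).2.2.2 (F.pi i ▸ spin_fai D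
      (by simpa using ne_zero_of_ne (k := Kb p) p Nat.prime_two h2) hz (c i hi).1
      (F.inv hω (inv_top _) fun j d hj a => (c i hi).2.1 j a fun e => by simp [(hw j).2 e] at hj)
      (Submodule.one_le_finrank_iff.1 h0) (x i) (F.pi i ▸ (c i hi).2.2.1) e)
  have h4 := st 3 _ le_rfl (by decide) (st 2 _ (by decide) (by decide) (st 1 _ (by decide)
    (by decide) (st 0 (fun _ => none) (by decide) (by decide)
      (by rw [PW_none, finrank_top]; exact finrank_pos))))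
  rw [hμ, show fr _ = 1 by decide, show sz _ = 4 by decide] at h4
  have n := hμ fun _ => none
  rw [PW_none, finrank_top, show fr _ = 5 by decide, show sz _ = 0 by decide,
    show P3 μ 5 0 = μ 0 + 10 * μ 1 + 40 * μ 2 + 80 * μ 3 + 80 * μ 4 + 32 * μ 5 by
      simp only [P3, Nat.reduceAdd]; ring] at n
  have m := hμ fun _ => some 1
  rw [show fr _ = 0 by decide, show sz _ = 5 by decide, P3] at m
  obtain ⟨g, hg, g3⟩ := F.exists_gc (sub3 b15 f234)
  have t := (F.tr h3 hω (inv_top _) hμ f234 (w := ![some 1, some 1, none, none, none]) (by decide)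
    (by decide) hg g3).1
  rw [show sz _ = 2 by decide, show Function.update (Function.update (Function.update
    ![some 1, some 1, none, none, none] (f234 0) (some 1)) (f234 1) (some 1)) (f234 2)
    (some (1 : Fin 3)) = fun _ => some 1 by decide] at t
  rw [em_gc5] at hg
  obtain ⟨u, hu⟩ := F.lift (σ := em b15 (prodCongrLeft fun _ => swap 0 1 * swap 3 4))
    ((sign_em _ _).trans (by decide +kernel))
  have e : g * u = u * (g * g) := F.rel g3 (cube_sq g3) (by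
    rw [map_mul, hg, hu, ← map_mul, ← map_mul, ← map_mul]
    exact congrArg _ (by decide +kernel))
  have s := split3 h3 hω (rho3 g3) (F.blk hω (inv_top (ρ := ρ) _) hg (w := fun _ => some 1)
    fun _ => rfl)
  have l : ∀ a : Fin 3, finrank (Kb p) ↥(PW x ρ ω ⊤ (fun _ => some 1) ⊓ Ei ω (ρ g) a) ≤
      finrank (Kb p) ↥(PW x ρ ω ⊤ (fun _ => some 1) ⊓ Ei ω (ρ g) (-a)) := fun a =>
    finrank_le_of_map (ρ := ρ) (W := _ ⊓ _) (W' := _ ⊓ _) u fun v hv =>
      ⟨F.blk hω (inv_top _) hu (fun _ => rfl) v hv.1, Ei_conj e (Ei_sq hω hv.2)⟩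
  obtain ⟨E, hE⟩ : ∃ E : Fin 3 → ℕ, ∀ a,
      finrank (Kb p) ↥(PW x ρ ω ⊤ (fun _ => some 1) ⊓ Ei ω (ρ g) a) = E a := ⟨_, fun _ => rfl⟩
  rw [Fin.sum_univ_three, m, hE, hE, hE] at s
  rw [hE] at t
  have l1 : E 1 ≤ E 2 := (hE 1).ge.trans ((l 1).trans (hE 2).le)
  have l2 : E 2 ≤ E 1 := (hE 2).ge.trans ((l 2).trans (hE 1).le)
  simp only [P3, Nat.reduceAdd] at h4 t
  have a3 : μ 3 = 0 := by omega
  have a4 : μ 4 = 0 := by omega
  have a5 : μ 5 = 1 := by omega
  have a2 : μ 2 = 0 := by omega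
  omega

/-- Four blocks of three points among fourteen points. -/
def b14 : Fin 4 × Fin 3 ↪ Fin 14 :=
  (finProdFinEquiv : Fin 4 × Fin 3 ≃ Fin (4 * 3)).toEmbedding.trans (Fin.castLEEmb (by norm_num))

/-- The points from `m` on. -/
def T14 (m : ℕ) : Finset (Fin 14) := Finset.univ.filter fun y => m ≤ y.val

section

variable {k : Type} [Field k] {V : Type} [AddCommGroup V] [Module k V] [FiniteDimensional k V]
  {ρ : Representation k (alternatingGroup (Fin 14)) V} {ω : k}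
  {x : Fin 4 → alternatingGroup (Fin 14)} (F : Frm sb b14 x) (h3 : (3 : k) ≠ 0)
  (hω : ω ^ 2 + ω + 1 = 0)
include F h3 hω

theorem fai14 (i : Fin 4) {w : Fin 4 → Option (Fin 3)} (hw : ∀ j, w j = none ↔ i ≤ j)
    (h : 0 < finrank k (PW x ρ ω ⊤ (Function.update w i (some 1)))) :
    Inv sb ρ (T14 (3 * i)) (PW x ρ ω ⊤ w) ∧ Fai sb ρ (T14 (3 * i)) (PW x ρ ω ⊤ w) := by
  have c : ∀ i : Fin 4, 5 ≤ (T14 (3 * i)).card ∧ (∀ j a, ¬ i ≤ j → b14 (j, a) ∉ T14 (3 * i)) ∧
      ∀ y ∉ T14 (3 * i), cyc (b14 (i, 1)) (b14 (i, 2)) (b14 (i, 0)) y = y := by decide +kernel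
  have hI : Inv sb ρ (T14 (3 * i)) (PW x ρ ω ⊤ w) := F.inv hω (inv_top _) fun j d hj a =>
    (c i).2.1 j a fun e => by simp [(hw j).2 e] at hj
  exact ⟨hI, (triv_or_fai (c i).1 hI).resolve_right fun e => not_triv_of_pos h3 hω
    ((hw i).2 le_rfl) h (e _ ((show (x i).1 = _ from F.pi i) ▸ (c i).2.2))⟩

variable [IsAlgClosed k]

theorem vtrick (h2 : (2 : k) ≠ 0) (a b c : Fin 3)
    (h : 0 < finrank k (PW x ρ ω ⊤ (Function.update ![some a, some b, some c, none] 3 (some 1)))) :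
    0 < finrank k (PW x ρ ω ⊤ (Function.update ![some a, some b, some c, none] 3 (some 0))) := by
  obtain ⟨hI, hF⟩ := fai14 F h3 hω 3 (by clear * -; revert a b c; decide) h
  let f : Fin 4 ↪ Fin 14 := ⟨![12, 9, 10, 11], by decide⟩
  have hf : Set.range f ⊆ T14 (3 * (3 : Fin 4)) := by
    rintro _ ⟨i, rfl⟩; revert i; decide
  obtain ⟨v, hv, v0⟩ := exists_Wk h2 f (hI.mono hf) fun e =>
    ia_ne f (by decide +kernel) (hF _ ((suppIn_em f _).mono hf) e)
  have e : ia f x4 = x 3 := Subtype.ext (by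
    rw [coe_ia, show (x 3).1 = _ from F.pi 3, show x4.1 = cyc 2 3 1 by decide +kernel, em_cyc]; rfl)
  have a1 := Wk_move hv.2
  have a2 := Wk_move a1
  rw [e] at a1 a2
  have m := fun v => F.x_mem (ρ := ρ) (ω := ω) (inv_top _) (w := ![some a, some b, some c, none])
    3 (v := v)
  rw [PW_update _ rfl]
  refine Submodule.one_le_finrank_iff.2 ((Submodule.ne_bot_iff _).2
    ⟨v + ρ (x 3) v + ρ (x 3) (ρ (x 3) v), ⟨add_mem (add_mem hv.1 (m _ hv.1)) (m _ (m _ hv.1)),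
      mem_Ei.2 ?_⟩, fun e => v0 ?_⟩)
  · simp only [map_add, rho3 (F.cube 3), Fin.val_zero, pow_zero, one_smul]; abel
  · have := congrArg (ρ (ia f s4)) e
    rw [map_add, map_add, (mem_Wk.1 hv.2).2, (mem_Wk.1 a1).2, (mem_Wk.1 a2).2, map_zero] at this
    exact (smul_eq_zero_iff_right h2).1 (by linear_combination (norm := module) e + this)

theorem v5 (h5 : (5 : k) ≠ 0)
    (h : 0 < finrank k (PW x ρ ω ⊤ (Function.update ![some 1, some 1, some 0, none] 3 (some 1)))) :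
    4 ≤ finrank k (PW x ρ ω ⊤ ![some 1, some 1, some 0, none]) := by
  obtain ⟨hI, hF⟩ := fai14 F h3 hω 3 (by decide) h
  have s : SuppIn (el (List.formPerm [9, 10, 11, 12, 13] : Perm (Fin 14))).1 (T14 (3 * (3 : Fin 4))) :=
    (by decide +kernel : ∀ y ∉ T14 9, List.formPerm [9, 10, 11, 12, 13] y = y)
  refine four_of_five h5 (y := el (List.formPerm [9, 10, 11, 12, 13]))
    (u := el (List.formPerm [10, 12, 13, 11] * swap 7 8)) (by decide +kernel) (by decide +kernel)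
    (hI _ s) (fun v hv => F.move hω hv trivial ?_) fun e =>
      absurd (hF (el (List.formPerm [9, 10, 11, 12, 13])) s e) (by decide +kernel)
  decide +kernel

omit [IsAlgClosed k] in
theorem Us_le {μ : ℕ → ℕ} (hμ : ∀ w, finrank k (PW x ρ ω ⊤ w) = P3 μ (fr w) (sz w))
    (h0 : P3 μ 1 2 = 0) {i j l : Fin 4} (hd : i ≠ j ∧ i ≠ l ∧ j ≠ l) :
    Us ρ (x i) ⊓ Us ρ (x j) ≤ Us ρ (x l) := fun v hv => by
  have z : ∀ i v, v ∈ Us ρ (x i) → v ∈ Ei ω (ρ (x i)) 0 → v = 0 := fun i v a b => by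
    have b : ρ (x i) v = v := by simpa using mem_Ei.1 b
    rw [mem_Us, b, b] at a
    exact (smul_eq_zero_iff_right h3).1 (by linear_combination (norm := module) a)
  let Z := Us ρ (x i) ⊓ Us ρ (x j) ⊓ Ei ω (ρ (x l)) 0
  have hZ : ∀ m, ∀ v ∈ Z, ρ (x m) v ∈ Z := fun m v hv =>
    ⟨⟨Us_conj (F.comm i m) hv.1.1, Us_conj (F.comm j m) hv.1.2⟩, Ei_conj (F.comm l m) hv.2⟩
  have : finrank k Z = 0 := by
    rw [split3 h3 hω (rho3 (F.cube i)) (hZ i)]
    refine Finset.sum_eq_zero fun a _ => ?_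
    rw [split3 h3 hω (rho3 (F.cube j)) (U := _ ⊓ _) fun v hv =>
      ⟨hZ j v hv.1, Ei_conj (F.comm i j) hv.2⟩]
    refine Finset.sum_eq_zero fun b _ => Submodule.finrank_eq_zero.2
      ((Submodule.eq_bot_iff _).2 fun v hv => ?_)
    by_cases ha : a = 0
    · exact z i v hv.1.1.1.1 (ha ▸ hv.1.2)
    by_cases hb : b = 0
    · exact z j v hv.1.1.1.2 (hb ▸ hv.2)
    have := hμ (Function.update (Function.update (Function.update (fun _ => none) i (some a)) j
      (some b)) l (some 0))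
    rw [show fr _ = 1 by clear * - hd; revert i j l a b; decide,
      show sz _ = 2 by clear * - hd ha hb; revert i j l a b; decide, h0,
      PW_update _ (by simp [hd.2.1.symm, hd.2.2.symm]), PW_update _ (by simp [hd.1.symm]),
      PW_update _ rfl, PW_none, Submodule.finrank_eq_zero, Submodule.eq_bot_iff] at this
    exact this v ⟨⟨⟨trivial, hv.1.2⟩, hv.2⟩, hv.1.1.2⟩
  have m : ∀ v ∈ Us ρ (x i) ⊓ Us ρ (x j), ρ (x l) v ∈ Us ρ (x i) ⊓ Us ρ (x j) := fun v hv =>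
    ⟨Us_conj (F.comm i l) hv.1, Us_conj (F.comm j l) hv.2⟩
  refine mem_Us.2 <| (Submodule.eq_bot_iff _).1 (Submodule.finrank_eq_zero.1 this) _
    ⟨add_mem (add_mem hv (m _ hv)) (m _ (m _ hv)), mem_Ei.2 ?_⟩
  simp only [map_add, rho3 (F.cube l), Fin.val_zero, pow_zero, one_smul]; abel

omit [IsAlgClosed k] in
theorem Us_inv {μ : ℕ → ℕ} (hμ : ∀ w, finrank k (PW x ρ ω ⊤ w) = P3 μ (fr w) (sz w))
    (h0 : P3 μ 1 2 = 0) (g : alternatingGroup (Fin 14)) :
    Us ρ (x 0) ⊓ Us ρ (x 1) ≤ (Us ρ (x 0) ⊓ Us ρ (x 1)).comap (ρ g) := by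
  have e : Us ρ (x 0) ⊓ Us ρ (x 1) = Us ρ (x 2) ⊓ Us ρ (x 3) := le_antisymm
    (le_inf (Us_le F h3 hω hμ h0 (by decide)) (Us_le F h3 hω hμ h0 (by decide)))
    (le_inf (Us_le F h3 hω hμ h0 (by decide)) (Us_le F h3 hω hμ h0 (by decide)))
  let S : Submonoid (alternatingGroup (Fin 14)) :=
    { carrier := {g | ∀ v ∈ Us ρ (x 0) ⊓ Us ρ (x 1), ρ g v ∈ Us ρ (x 0) ⊓ Us ρ (x 1)}
      one_mem' := fun v hv => by simpa only [map_one, End.one_apply] using hv
      mul_mem' := fun a b v hv => rho_mul (ρ := ρ) _ _ v ▸ a _ (b v hv) }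
  have h1 := mem_closure_cyc (α := (12 : Fin 14)) (β := 13) (by decide)
    (Finset.univ.filter fun i => i ≠ 12 ∧ i ≠ 13) (fun i hi => by simpa using hi) g.2
    fun y hy => by simp at hy; grind
  have h2 : g.1 ∈ (Subgroup.map sb (Subgroup.closure S)) := by
    refine (Subgroup.closure_le _).2 ?_ h1
    rintro _ ⟨i, hi, rfl⟩
    replace hi : i ≠ 12 ∧ i ≠ 13 := by simpa using hi
    refine ⟨cy hi, Subgroup.subset_closure fun v hv => ?_, rfl⟩
    have c : ∀ j : Fin 4, (∀ a, b14 (j, a) ≠ i) → x j * cy hi = cy hi * x j := fun j hj =>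
      F.rel1 fun a => cyc_of_ne (hj a) (by clear * -; revert j a; decide)
        (by clear * -; revert j a; decide)
    by_cases h6 : 6 ≤ i.val
    · exact ⟨Us_conj (c 0 (by clear * - h6; revert i; decide)) hv.1,
        Us_conj (c 1 (by clear * - h6; revert i; decide)) hv.2⟩
    · rw [e] at hv ⊢
      exact ⟨Us_conj (c 2 (by clear * - h6; revert i; decide)) hv.1,
        Us_conj (c 3 (by clear * - h6; revert i; decide)) hv.2⟩
  obtain ⟨g', h4, h5⟩ := h2
  obtain rfl : g' = g := Subtype.ext h5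
  replace h4 : g' ∈ (Subgroup.closure (S : Set _)).toSubmonoid := h4
  rw [Subgroup.closure_toSubmonoid_of_finite, Submonoid.closure_eq] at h4
  exact h4

end

theorem P3_four (μ : ℕ → ℕ) : P3 μ 4 0 = μ 0 + 8 * μ 1 + 24 * μ 2 + 32 * μ 3 + 16 * μ 4 ∧
    P3 μ 3 1 = μ 1 + 6 * μ 2 + 12 * μ 3 + 8 * μ 4 ∧ P3 μ 2 2 = μ 2 + 4 * μ 3 + 4 * μ 4 := by
  simp only [P3, Nat.reduceAdd]
  exact ⟨by ring, by ring, by ring⟩

theorem m14_odd (p : ℕ) [Fact p.Prime] (h2 : p ≠ 2) (h3 : p ≠ 3) :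
    M3At p 14 56 (if p = 5 then 6 else 9) := by
  intro V _ _ _ ρ hd y hy ω hω
  obtain ⟨x, F⟩ := cv_alt.frm b14
  replace h2 : (2 : Kb p) ≠ 0 := by simpa using ne_zero_of_ne (k := Kb p) p Nat.prime_two h2
  replace h3 : (3 : Kb p) ≠ 0 := by simpa using ne_zero_of_ne (k := Kb p) p Nat.prime_three h3
  obtain ⟨μ, hμ⟩ := F.exists_mu hω h3 (by simp) (inv_top (ρ := ρ) _)
  refine (eig_three_le (by simp) hy F 0).trans ?_
  have v := fun a b c => vtrick (ρ := ρ) F h3 hω h2 a b c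
  have v0 := v 0 0 0
  have v1 := v 1 0 0
  have v2 := v 1 1 0
  have v3 := v 1 1 1
  rw [hμ, hμ, show fr _ = 0 by decide, show fr _ = 0 by decide] at v0 v1 v2 v3
  replace v0 : 0 < μ 1 → 0 < μ 0 := v0
  replace v1 : 0 < μ 2 → 0 < μ 1 := v1
  replace v2 : 0 < μ 3 → 0 < μ 2 := v2
  replace v3 : 0 < μ 4 → 0 < μ 3 := v3
  have n := hμ fun _ => none
  rw [PW_none, finrank_top, show fr _ = 4 by decide, show sz _ = 0 by decide, (P3_four μ).1] at n
  have m := hμ (Function.update (fun _ => none) 0 (some 1))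
  rw [show fr _ = 3 by decide, show sz _ = 1 by decide, (P3_four μ).2.1] at m
  have a3 : μ 3 = 0 := by omega
  have a4 : μ 4 = 0 := by omega
  split_ifs with h5
  · by_cases a2 : μ 2 = 0
    · omega
    obtain ⟨hI, hF⟩ := fai14 (ρ := ρ) F h3 hω 1 (w := Function.update (fun _ => none) 0 (some 1))
      (by decide) (by
        rw [hμ, show fr _ = 2 by decide, show sz _ = 2 by decide, (P3_four μ).2.2]; omega)
    have c : (T14 (3 * (1 : Fin 4))).card = 11 := by decide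
    have := sec_sub (Subgroup.range_subtype _) (c ▸ sec_all (by norm_num)) p hI hF
    rw [c, show bd p 11 = 10 by rw [h5]; decide] at this
    omega
  · omega

theorem m14_two (Q : JobQ14) : M3At 2 14 56 9 := by
  intro V _ _ _ ρ hd y hy ω hω
  obtain ⟨x, F⟩ := cv_alt.frm b14
  have h3 : (3 : Kb 2) ≠ 0 := by
    simpa using ne_zero_of_ne (k := Kb 2) 2 Nat.prime_three (by norm_num)
  obtain ⟨μ, hμ⟩ := F.exists_mu hω h3 (by simp) (inv_top (ρ := ρ) _)
  refine (eig_three_le (by simp) hy F 0).trans ?_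
  have v := v5 (ρ := ρ) F h3 hω
    (by simpa using ne_zero_of_ne (k := Kb 2) 2 Nat.prime_five (by norm_num))
  rw [hμ, hμ] at v
  replace v : 0 < μ 3 → 4 ≤ μ 2 + 2 * μ 3 := v
  let f : Fin 3 ↪ Fin 4 := ⟨![1, 2, 3], by decide⟩
  obtain ⟨g, hg, g3⟩ := F.exists_gc (sub3 b14 f)
  have t := fun a : Fin 3 => le_trans (Nat.le_add_right _ _) (F.tr h3 hω (inv_top _) hμ f
    (w := ![some a, none, none, none]) (by revert a; decide) (by revert a; decide) hg g3).1
  have t0 : 2 * μ 1 ≤ μ 0 + 2 * μ 2 := t 0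
  have t1 : 2 * μ 2 ≤ μ 1 + 2 * μ 3 := t 1
  have n := hμ fun _ => none
  rw [PW_none, finrank_top, show fr _ = 4 by decide, show sz _ = 0 by decide, (P3_four μ).1] at n
  rw [hμ, show fr _ = 3 by decide, show sz _ = 1 by decide, (P3_four μ).2.1]
  have a3 : μ 3 = 0 := by omega
  by_cases a2 : μ 2 = 0
  swap
  · have : μ 2 = 1 := by omega
    have : μ 4 = 0 := by omega
    omega
  by_cases a4 : μ 4 = 0
  · omega
  exfalso
  have hI := Us_inv F h3 hω hμ (by simp [P3, a2, a3])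
  have e : ∀ (i : Fin 4) v, v ∈ Ei ω (ρ (x i)) 1 → v ∈ Us ρ (x i) := fun i v hv => by
    have b : ρ (x i) v = ω • v := by simpa using mem_Ei.1 hv
    rw [mem_Us, b, map_smul, b]
    linear_combination (norm := module) hω • v
  have : Nontrivial ↥(Us ρ (x 0) ⊓ Us ρ (x 1)) := by
    have h : _ = μ 4 := hμ fun _ => some 1
    obtain ⟨v, hv, v0⟩ := (Submodule.ne_bot_iff _).1 (Submodule.one_le_finrank_iff.1
      ((Nat.pos_of_ne_zero a4).trans_eq h.symm))
    exact Submodule.nontrivial_iff_ne_bot.2 ((Submodule.ne_bot_iff _).2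
      ⟨v, ⟨e 0 v ((mem_PW.1 hv).2 0 _ rfl), e 1 v ((mem_PW.1 hv).2 1 _ rfl)⟩, v0⟩)
  refine (Q _ (ρ.subrepresentation _ hI) fun s hs v hv => ?_).not_ge
    ((Submodule.finrank_le _).trans hd)
  have : (x 0 : Perm (Fin 14)).IsThreeCycle := by
    rw [show (x 0 : Perm (Fin 14)) = _ from F.pi 0]
    exact isThreeCycle_swap_mul_swap_same (by simp) (by simp) (by simp)
  obtain ⟨u, hu⟩ := isConj_iff.1 (alternatingGroup.isThreeCycle_isConj (by simp) hs this)
  have b : ρ (x 0) (ρ u v) = ρ u v := by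
    rw [← rho_mul, ← mul_inv_eq_iff_eq_mul.1 hu, rho_mul]
    exact congrArg _ (congrArg Subtype.val hv)
  have a := mem_Us.1 (hI u v.2).1
  rw [b, b] at a
  exact Subtype.ext (rho_inj (ρ := ρ) u (((smul_eq_zero_iff_right h3).1
    (by linear_combination (norm := module) a)).trans (map_zero _).symm))

theorem M3At.mono {p : ℕ} [Fact p.Prime] {r N b b' : ℕ} (h : M3At p r N b) (e : b ≤ b') :
    M3At p r N b' := fun V _ _ _ ρ hd x hx ω hω => (h V ρ hd x hx ω hω).trans e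

theorem jobM14 : JobM14 := fun Q => ⟨fun p _ h3 => by
  by_cases h2 : p = 2
  · subst h2; exact m14_two Q
  · exact (m14_odd p h2 h3).mono (by split_ifs <;> norm_num),
  @m14_odd 5 fact5 (by norm_num) (by norm_num)⟩

theorem M3At.succ {p : ℕ} [Fact p.Prime] {N b : ℕ} (h : M3At p 14 N b) : M3At p 15 N b := by
  intro V _ _ _ ρ hd x hx ω hω
  have h3 : (swap 0 1 * swap 0 2 : Perm (Fin 14)).IsThreeCycle :=
    isThreeCycle_swap_mul_swap_same (by decide) (by decide) (by decide)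
  refine le_trans ?_ (h V (ρ.comp (ia Fin.castSuccEmb)) hd ⟨_, h3.mem_alternatingGroup⟩ h3 ω hω)
  obtain ⟨g, hg⟩ := isConj_iff.1 (alternatingGroup.isThreeCycle_isConj (by simp) hx
    (τ := ia Fin.castSuccEmb ⟨_, h3.mem_alternatingGroup⟩) (by
      rw [coe_ia, map_mul, em_swap, em_swap]
      exact isThreeCycle_swap_mul_swap_same (by decide) (by decide) (by decide)))
  exact finrank_le_of_map g fun v hv => by
    simpa using Ei_conj (mul_inv_eq_iff_eq_mul.1 hg).symm (c := 1) (ω := ω) (by simpa using hv)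

end H40.AS
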