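/- ALTSEC: alternating sections of the groups of type E7. -/
import Cfsg.Agent.H40.ASM14
import Cfsg.Agent.H17.ASRG
import Cfsg.Agent.H17.AS77
import Cfsg.Agent.H3.AsV4
import Cfsg.Agent.H26.ASE7

set_option autoImplicit false

universe u

namespace H40.AS

open Equiv Module Cfsg.Lie

theorem e7_main {F : Type u} [Field F] [Fintype F] (p : ℕ) [Fact p.Prime] [CharP F p] (r : ℕ)
    (H : Subgroup (chevE7.group F)) (K : Subgroup H) [K.Normal]
    (h : Nonempty (H ⧸ K ≃* alternatingGroup (Fin r))) : r ≤ 13 + (if p = 7 then 1 else 0) := by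
  obtain ⟨m, m5⟩ := jobM14 H17.AS77.jobQ14
  by_contra hr
  split_ifs at hr with hp
  · exact H26.E7.jobE7 F p r 15 (by omega) H K h (H17.ASRG.jobRedG p 15 56 20 (by norm_num)
      (by norm_num) (fun h2 => s15 p h2 (by omega)) ⟨6, @M3At.succ 5 fact5 _ _ m5, by norm_num⟩
      (.inl ⟨by omega, 9, (m p (by omega)).succ, by norm_num⟩))
  · refine H26.E7.jobE7 F p r 14 (by omega) H K h (H17.ASRG.jobRedG p 14 56 20 (by norm_num)
      (by norm_num) (fun h2 => H17.AS77.jobS14 p h2 hp) ⟨6, m5, by norm_num⟩ ?_)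
    by_cases h3 : p = 3
    · subst h3
      exact .inr ⟨by norm_num, 19, H3.AV.jobM143, by norm_num⟩
    · exact .inl ⟨h3, 9, m p h3, by norm_num⟩

end H40.AS
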