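/- ALTSEC: alternating sections of the groups of type E8. -/
import Cfsg.Agent.H40.ASM18
import Cfsg.Agent.H17.ASRG
import Cfsg.Agent.H1.AS19

set_option autoImplicit false

universe u

namespace H40.AS

open Equiv Module Cfsg.Lie

theorem e8_main {F : Type u} [Field F] [Fintype F] (p : ℕ) [Fact p.Prime] [CharP F p] (r : ℕ)
    (H : Subgroup (chevE8.group F)) (K : Subgroup H) [K.Normal]
    (h : Nonempty (H ⧸ K ≃* alternatingGroup (Fin r))) : r ≤ 17 + (if p = 3 then 1 else 0) := by
  split_ifs with hp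
  · exact H1.AS8.job19 F p (by omega) r H K h
  · by_contra hr
    exact H1.AS8.jobE8 F p r 18 (by omega) H K h (H17.ASRG.jobRedG p 18 248 88 (by norm_num)
      (by norm_num) (fun h2 => jobS18 p h2 hp) ⟨29, @jobM18 5 fact5 (by norm_num), by norm_num⟩
      (.inl ⟨hp, 29, jobM18 p hp, by norm_num⟩))

end H40.AS
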