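import Cfsg.Agent.Base

/-! 3/2-transitive groups with a regular normal subgroup (Isaacs–Passman). -/

set_option autoImplicit false

namespace H40.HalfTr

open MulAction

variable {G Ω : Type*} [Group G] [Finite G] [MulAction G Ω] [Finite Ω]

theorem div_dvd (K : Subgroup G) (X : Set Ω) (hX : ∀ k ∈ K, ∀ x ∈ X, k • x ∈ X) (s : ℕ)
    (hs : ∀ x ∈ X, Nat.card ↥(K ⊓ stabilizer G x) = s) : Nat.card K / s ∣ X.ncard := by
  classical
  let Y : SubMulAction K Ω := ⟨X, fun k x hx => hX k k.2 x hx⟩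
  have := Fintype.ofFinite K
  have := Fintype.ofFinite Y
  have := Fintype.ofFinite (Quotient (orbitRel K Y))
  have h := MulAction.card_eq_sum_card_group_div_card_stabilizer K Y
  have e : X.ncard = Fintype.card Y := by
    rw [← Nat.card_eq_fintype_card]; rfl
  rw [e, h]
  refine Finset.dvd_sum fun ω _ => ?_
  have e2 : Nat.card (stabilizer K ω.out) = s := by
    rw [← hs _ ω.out.2]
    refine Nat.card_congr ⟨fun k => ⟨k.1.1, k.1.2, congrArg Subtype.val k.2⟩,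
      fun k => ⟨⟨k.1, k.2.1⟩, Subtype.ext k.2.2⟩, fun _ => rfl, fun _ => rfl⟩
  rw [← Nat.card_eq_fintype_card, ← Nat.card_eq_fintype_card, e2]

theorem block (a : Ω) (s : ℕ) (hs : ∀ x, x ≠ a → Nat.card ↥(stabilizer G a ⊓ stabilizer G x) = s)
    (X : Set Ω) (ha : a ∉ X) (hd : X.ncard ∣ Nat.card Ω)
    (hX : ∀ h ∈ stabilizer G a, ∀ x ∈ X, h • x = x → ∀ y ∈ X, h • y ∈ X)
    (h : G) (hh : h ∈ stabilizer G a) (x : Ω) (hx : x ∈ X) (hhx : h • x = x) (y : Ω) (hy : y ∈ X) :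
    h • y = y := by
  let K : Subgroup G :=
    { carrier := {g | g • a = a ∧ ∀ y, y ∈ X ↔ g • y ∈ X}
      one_mem' := by simp
      mul_mem' := fun {u v} hu hv => ⟨by rw [mul_smul, hv.1, hu.1], fun y => by
        rw [mul_smul, ← hu.2, ← hv.2]⟩
      inv_mem' := fun {u} hu => ⟨inv_smul_eq_iff.2 hu.1.symm, fun y => by
        rw [hu.2 (u⁻¹ • y), smul_inv_smul]⟩ }
  have hK : ∀ z ∈ X, ∀ g ∈ stabilizer G a, g • z = z → g ∈ K := fun z hz g hg hgz =>
    ⟨hg, fun y => ⟨hX g hg z hz hgz y, fun hy => by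
      have := hX g⁻¹ (inv_mem hg) z hz (inv_smul_eq_iff.2 hgz.symm) _ hy
      rwa [inv_smul_smul] at this⟩⟩
  have hKH : K ≤ stabilizer G a := fun g hg => hg.1
  have hKs : ∀ z ∈ X, Nat.card ↥(K ⊓ stabilizer G z) = s := fun z hz => by
    rw [← hs z (fun e => ha (e ▸ hz))]
    congr 2
    exact le_antisymm (inf_le_inf_right _ hKH) fun g hg => ⟨hK z hz g hg.1 hg.2, hg.2⟩
  have d1 := (div_dvd K X (fun k hk z hz => (hk.2 z).1 hz) s hKs).trans hd
  have d2 := div_dvd (stabilizer G a) {a}ᶜ (fun k hk z hz e => hz (by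
    rw [Set.mem_singleton_iff] at e ⊢
    exact smul_left_cancel k (e.trans (show k • a = a from hk).symm))) s hs
  have hsK : s ∣ Nat.card K := hKs y hy ▸ Subgroup.card_dvd_of_le inf_le_left
  have d3 : Nat.card K / s ∣ Nat.card (stabilizer G a) / s :=
    Nat.div_dvd_div hsK (Subgroup.card_dvd_of_le hKH)
  have e := Set.ncard_add_ncard_compl ({a} : Set Ω)
  rw [Set.ncard_singleton] at e
  have d4 : Nat.card K / s ∣ 1 := by
    rw [← e, add_comm] at d1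
    exact (Nat.dvd_add_right (d3.trans d2)).1 d1
  have e5 : Nat.card K = s := by
    have := Nat.div_mul_cancel hsK
    rw [Nat.dvd_one.1 d4, one_mul] at this
    exact this.symm
  have e6 : K ⊓ stabilizer G y = K :=
    Subgroup.eq_of_le_of_card_ge inf_le_left (by rw [e5, hKs y hy])
  have : h ∈ K ⊓ stabilizer G y := by rw [e6]; exact hK x hx h hh hhx
  exact this.2

theorem main [FaithfulSMul G Ω]
    (hhalf : ∀ a b c : Ω, b ≠ a → c ≠ a →
      Nat.card (orbit (stabilizer G a) b) = Nat.card (orbit (stabilizer G a) c))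
    (N : Subgroup G) [hN : N.Normal] (hNt : IsPretransitive N Ω) (hNr : ∀ a : Ω, stabilizer N a = ⊥)
    (hnotF : ∃ a b : Ω, a ≠ b ∧ stabilizer G a ⊓ stabilizer G b ≠ ⊥) :
    (∃ p : ℕ, p.Prime ∧ IsMulCommutative N ∧ ∀ x ∈ N, x ^ p = 1) ∧
    (∀ M : Subgroup G, M.Normal → M ≠ ⊥ → N ≤ M) := by
  obtain ⟨a, b, hab, hne⟩ := hnotF
  set H := stabilizer G a with hH
  set s := Nat.card ↥(H ⊓ stabilizer G b) with hs_def
  have hcard : ∀ x : Ω, Nat.card ↥(H ⊓ stabilizer G x) * Nat.card (orbit H x) = Nat.card H := fun x => by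
    have h1 := (stabilizer H x).card_mul_index
    rw [index_stabilizer] at h1
    rw [← h1]
    congr 1
    exact Nat.card_congr ⟨fun k => ⟨⟨k.1, k.2.1⟩, k.2.2⟩, fun k => ⟨k.1.1, k.1.2, k.2⟩,
      fun _ => rfl, fun _ => rfl⟩
  have hs : ∀ x, x ≠ a → Nat.card ↥(H ⊓ stabilizer G x) = s := fun x hx => by
    have h1 := hcard x
    rw [hhalf a x b hx hab.symm, ← hcard b] at h1
    have : Nonempty (orbit H b) := ⟨⟨b, mem_orbit_self b⟩⟩
    exact Nat.eq_of_mul_eq_mul_right Nat.card_pos h1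
  have hinj : ∀ n ∈ N, ∀ m ∈ N, n • a = m • a → n = m := fun n hn m hm e => by
    have : (⟨m⁻¹ * n, mul_mem (inv_mem hm) hn⟩ : N) ∈ stabilizer N a := by
      show (m⁻¹ * n) • a = a
      rw [mul_smul, e, inv_smul_smul]
    rw [hNr, Subgroup.mem_bot] at this
    exact (inv_mul_eq_one.1 (congrArg Subtype.val this)).symm
  have hsurj : ∀ x, ∃ n ∈ N, n • a = x := fun x => by
    obtain ⟨n, hn⟩ := hNt.exists_smul_eq a x
    exact ⟨n, n.2, hn⟩
  have hconj : ∀ h ∈ H, ∀ n : G, h • n • a = (h * n * h⁻¹) • a := fun h hh n => by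
    rw [mul_smul, mul_smul, inv_smul_eq_iff.2 (show h • a = a from hh).symm]
  have hfix : ∀ h ∈ H, ∀ n ∈ N, h • n • a = n • a ↔ h * n * h⁻¹ = n := fun h hh n hn => by
    rw [hconj h hh]
    exact ⟨hinj _ (hN.conj_mem n hn h) _ hn, fun e => by rw [e]⟩
  have hΩ : Nat.card Ω = Nat.card N :=
    (Nat.card_congr (Equiv.ofBijective (fun n : N => (n : G) • a)
      ⟨fun n m e => Subtype.ext (hinj _ n.2 _ m.2 e), fun x => by
        obtain ⟨n, hn, e⟩ := hsurj x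
        exact ⟨⟨n, hn⟩, e⟩⟩)).symm
  -- group form of `block`
  have blk : ∀ X : Set G, X ⊆ N → 1 ∉ X → X.ncard ∣ Nat.card N →
      (∀ h ∈ H, ∀ x ∈ X, h * x * h⁻¹ = x → ∀ y ∈ X, h * y * h⁻¹ ∈ X) →
      ∀ h ∈ H, ∀ x ∈ X, h * x * h⁻¹ = x → ∀ y ∈ X, h * y * h⁻¹ = y := by
    intro X hXN h1 hd hX h hh x hx e y hy
    rw [← hfix h hh y (hXN hy)]
    refine block a s hs ((fun n : G => n • a) '' X) ?_ ?_ ?_ h hh _ ⟨x, hx, rfl⟩
      ((hfix h hh x (hXN hx)).2 e) _ ⟨y, hy, rfl⟩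
    · rintro ⟨n, hn, e⟩
      exact h1 (hinj n (hXN hn) 1 N.one_mem (by rw [one_smul]; exact e) ▸ hn)
    · rw [Set.InjOn.ncard_image fun n hn m hm e => hinj n (hXN hn) m (hXN hm) e, hΩ]
      exact hd
    · rintro g hg _ ⟨u, hu, rfl⟩ e _ ⟨v, hv, rfl⟩
      exact ⟨_, hX g hg u hu ((hfix g hg u (hXN hu)).1 e) v hv, (hconj g hg v).symm⟩
  let S : G → Subgroup G := fun n => H ⊓ stabilizer G (n • a)
  have memS : ∀ n ∈ N, ∀ h, h ∈ S n ↔ h ∈ H ∧ h * n * h⁻¹ = n := fun n hn h =>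
    ⟨fun hh => ⟨hh.1, (hfix h hh.1 n hn).1 hh.2⟩, fun hh => ⟨hh.1, (hfix h hh.1 n hn).2 hh.2⟩⟩
  have cardS : ∀ n ∈ N, n ≠ 1 → Nat.card (S n) = s := fun n hn h1 =>
    hs _ fun e => h1 (hinj n hn 1 N.one_mem (by rw [one_smul]; exact e))
  have eqS : ∀ n ∈ N, n ≠ 1 → ∀ m ∈ N, m ≠ 1 → S n ≤ S m → S n = S m := fun n hn h1 m hm h2 hle =>
    Subgroup.eq_of_le_of_card_ge hle (by rw [cardS n hn h1, cardS m hm h2])
  have triv : ∀ h ∈ H, (∀ n ∈ N, h * n * h⁻¹ = n) → h = 1 := fun h hh hc =>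
    FaithfulSMul.eq_of_smul_eq_smul (α := Ω) fun x => by
      obtain ⟨n, hn, rfl⟩ := hsurj x
      rw [one_smul]
      exact (hfix h hh n hn).2 (hc n hn)
  have ntriv : ∀ n ∈ N, n ≠ 1 → ¬ ∀ m ∈ N, m ≠ 1 → S n ≤ S m := fun n hn h1 hall => by
    have : S n = ⊥ := by
      rw [eq_bot_iff]
      intro h hh
      refine triv h hh.1 fun m hm => ?_
      by_cases h2 : m = 1
      · simp [h2]
      · exact ((memS m hm h).1 (hall m hm h2 hh)).2
    have e := cardS n hn h1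
    rw [this, Subgroup.card_bot] at e
    exact hne (Subgroup.card_eq_one.1 e.symm)
  -- (1) classes
  have cls : ∀ x ∈ N, x ≠ 1 → ∀ h ∈ S x, ∀ n ∈ N, h * (n * x * n⁻¹) * h⁻¹ = n * x * n⁻¹ := by
    intro x hx h1 h hh n hn
    refine blk {y | ∃ n ∈ N, n * x * n⁻¹ = y} ?_ ?_ ?_ ?_ h hh.1 x ⟨1, N.one_mem, by simp⟩
      ((memS x hx h).1 hh).2 _ ⟨n, hn, rfl⟩
    · rintro _ ⟨n, -, rfl⟩
      exact hN.conj_mem x hx n
    · rintro ⟨n, -, e⟩
      exact h1 (by simpa using e)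
    · let φ : N →* MulAut G := MulAut.conj.comp N.subtype
      have e : {y | ∃ n ∈ N, n * x * n⁻¹ = y} = orbit φ.range x := by
        ext y
        constructor
        · rintro ⟨n, hn, rfl⟩
          exact ⟨⟨φ ⟨n, hn⟩, _, rfl⟩, rfl⟩
        · rintro ⟨⟨_, n, rfl⟩, rfl⟩
          exact ⟨n, n.2, rfl⟩
      rw [e, ← index_stabilizer]
      have : Finite φ.range := Finite.of_surjective _ φ.rangeRestrict_surjective
      exact (Subgroup.index_dvd_card _).trans (Subgroup.card_range_dvd φ)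
    · rintro g - _ ⟨u, hu, rfl⟩ e _ ⟨v, hv, rfl⟩
      refine ⟨g * (v * u⁻¹) * g⁻¹ * u, mul_mem (hN.conj_mem _ (mul_mem hv (inv_mem hu)) g) hu, ?_⟩
      calc _ = g * (v * u⁻¹) * g⁻¹ * (u * x * u⁻¹) * (g * (v * u⁻¹) * g⁻¹)⁻¹ := by group
        _ = _ := by rw [← e]; group
  -- (2) no invariant subgroups
  have irr : ∀ M : Subgroup G, M ≤ N → (∀ h ∈ H, ∀ m ∈ M, h * m * h⁻¹ ∈ M) → M ≠ ⊥ → N ≤ M := by
    intro M hMN hM hM1
    by_contra hlt
    obtain ⟨x, hxN, hxM⟩ := SetLike.not_le_iff_exists.1 hlt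
    obtain ⟨⟨m, hm⟩, hm1⟩ := Subgroup.ne_bot_iff_exists_ne_one.1 hM1
    have hm1' : m ≠ 1 := fun e => hm1 (Subtype.ext e)
    have key : ∀ x ∈ N, x ∉ M → ∀ h ∈ S x, ∀ u ∈ M, h * u * h⁻¹ = u := by
      intro x hx hxM h hh u hu
      have e0 := ((memS x hx h).1 hh).2
      have := blk ((fun u => u * x) '' M) ?_ ?_ ?_ ?_ h hh.1 x ⟨1, M.one_mem, one_mul x⟩ e0 _
        ⟨u, hu, rfl⟩
      · simp only at this
        have e : h * (u * x) * h⁻¹ = h * u * h⁻¹ * (h * x * h⁻¹) := by group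
        rw [e, e0] at this
        exact mul_right_cancel this
      · rintro _ ⟨v, hv, rfl⟩
        exact mul_mem (hMN hv) hx
      · rintro ⟨v, hv, e⟩
        exact hxM (by rw [eq_inv_of_mul_eq_one_right e]; exact inv_mem hv)
      · rw [Set.ncard_image_of_injective _ (mul_left_injective x)]
        exact Subgroup.card_dvd_of_le hMN
      · rintro g hg _ ⟨v, hv, rfl⟩ e _ ⟨w, hw, rfl⟩
        refine ⟨g * (w * v⁻¹) * g⁻¹ * v, mul_mem (hM g hg _ (mul_mem hw (inv_mem hv))) hv, ?_⟩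
        simp only at e ⊢
        rw [mul_assoc _ v, ← e]
        group
    have k2 : ∀ x ∈ N, x ∉ M → S x = S m := fun x hx hxM =>
      eqS x hx (fun e => hxM (e ▸ M.one_mem)) m (hMN hm) hm1' fun h hh =>
        (memS m (hMN hm) h).2 ⟨hh.1, key x hx hxM h hh m hm⟩
    refine ntriv m (hMN hm) hm1' fun y hy _ => ?_
    by_cases hyM : y ∈ M
    · rw [← k2 x hxN hxM]
      exact fun h hh => (memS y hy h).2 ⟨hh.1, key x hxN hxM h hh y hyM⟩
    · rw [k2 y hy hyM]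
  -- (3) abelian
  have c1 : ∀ x ∈ N, x ≠ 1 → ∀ y ∈ N, y ≠ 1 → S x ≠ S y → x * y = y * x := by
    intro x hx hx1 y hy hy1 hxy
    by_contra hc
    have hc1 : x * y * x⁻¹ * y⁻¹ ≠ 1 := fun e => hc (by
      rw [mul_inv_eq_one, mul_inv_eq_iff_eq_mul] at e; exact e)
    have hcN : x * y * x⁻¹ * y⁻¹ ∈ N := mul_mem (hN.conj_mem y hy x) (inv_mem hy)
    apply hxy
    rw [eqS x hx hx1 _ hcN hc1, eqS y hy hy1 _ hcN hc1]
    · intro h hh
      refine (memS _ hcN h).2 ⟨hh.1, ?_⟩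
      have e1 := cls y hy hy1 h hh x hx
      have e2 := ((memS y hy h).1 hh).2
      calc _ = h * (x * y * x⁻¹) * h⁻¹ * (h * y * h⁻¹)⁻¹ := by group
        _ = _ := by rw [e1, e2]
    · intro h hh
      refine (memS _ hcN h).2 ⟨hh.1, ?_⟩
      have e1 := cls x hx hx1 h hh y hy
      have e2 := ((memS x hx h).1 hh).2
      calc _ = h * x * h⁻¹ * (h * (y * x * y⁻¹) * h⁻¹)⁻¹ := by group
        _ = _ := by rw [e1, e2]; group
  have comm : ∀ x ∈ N, ∀ y ∈ N, x * y = y * x := by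
    intro x hx y hy
    by_cases hx1 : x = 1
    · simp [hx1]
    by_cases hy1 : y = 1
    · simp [hy1]
    by_cases hxy : S x = S y
    swap
    · exact c1 x hx hx1 y hy hy1 hxy
    have := ntriv x hx hx1
    push Not at this
    obtain ⟨z, hz, hz1, hxz⟩ := this
    have e1 := c1 x hx hx1 z hz hz1 fun e => hxz e.le
    have hsub : ∀ h ∈ S x, h * (y * z) * h⁻¹ = y * z → h ∈ S z := fun h hh e => by
      refine (memS z hz h).2 ⟨hh.1, ?_⟩
      have e2 := ((memS y hy h).1 (hxy ▸ hh)).2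
      have e3 : h * (y * z) * h⁻¹ = h * y * h⁻¹ * (h * z * h⁻¹) := by group
      rw [e3, e2] at e
      exact mul_left_cancel e
    have e2 := c1 x hx hx1 (y * z) (mul_mem hy hz)
      (fun e => hxz fun h hh => hsub h hh (by simp [e]))
      (fun e => hxz fun h hh => hsub h hh ((memS _ (mul_mem hy hz) h).1 (e ▸ hh)).2)
    rw [mul_assoc, ← e1, ← mul_assoc, ← mul_assoc] at e2
    exact mul_right_cancel e2
  obtain ⟨n, hn, hnb⟩ := hsurj b
  have hn1 : n ≠ 1 := fun e => hab (by rw [← hnb, e, one_smul])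
  constructor
  · obtain ⟨p, hp, hd⟩ := Nat.exists_prime_and_dvd (n := orderOf n) (by simpa using hn1)
    have : Fact p.Prime := ⟨hp⟩
    obtain ⟨x, hx⟩ := exists_prime_orderOf_dvd_card' (G := N) p
      (hd.trans (Subgroup.orderOf_dvd_natCard N hn))
    let M : Subgroup G :=
      { carrier := {y | y ∈ N ∧ y ^ p = 1}
        one_mem' := ⟨N.one_mem, one_pow _⟩
        mul_mem' := fun {u v} hu hv => ⟨mul_mem hu.1 hv.1, by
          rw [Commute.mul_pow (comm u hu.1 v hv.1), hu.2, hv.2, one_mul]⟩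
        inv_mem' := fun {u} hu => ⟨inv_mem hu.1, by rw [inv_pow, hu.2, inv_one]⟩ }
    have hM := irr M (fun y hy => hy.1)
      (fun h _ m hm => ⟨hN.conj_mem m hm.1 h, by rw [conj_pow, hm.2]; simp⟩) (by
        refine Subgroup.ne_bot_iff_exists_ne_one.2 ⟨⟨x, x.2, ?_⟩, fun e => ?_⟩
        · rw [← Subgroup.coe_pow, ← hx, pow_orderOf_eq_one]; rfl
        · have : x = 1 := Subtype.ext (Subtype.ext_iff.1 e :)
          rw [this, orderOf_one] at hx
          exact hp.one_lt.ne hx)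
    exact ⟨p, hp, ⟨⟨fun u v => Subtype.ext (comm _ u.2 _ v.2)⟩⟩, fun y hy => (hM hy).2⟩
  · intro M hM hM1
    refine (irr (M ⊓ N) inf_le_right
      (fun h _ m hm => ⟨hM.conj_mem m hm.1 h, hN.conj_mem m hm.2 h⟩) fun hb => ?_).trans inf_le_left
    obtain ⟨⟨m, hm⟩, hm1⟩ := Subgroup.ne_bot_iff_exists_ne_one.1 hM1
    obtain ⟨u, hu, e⟩ := hsurj (m • a)
    have h1 := triv (u⁻¹ * m) (by show (u⁻¹ * m) • a = a; rw [mul_smul, ← e, inv_smul_smul])
      fun y hy => by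
        have e1 := Subgroup.commute_of_normal_of_disjoint M N hM hN (disjoint_iff.2 hb) m y hm hy
        rw [mul_assoc u⁻¹, e1.eq, ← mul_assoc, comm _ (inv_mem hu) y hy]
        group
    have : m ∈ M ⊓ N := ⟨hm, inv_mul_eq_one.1 h1 ▸ hu⟩
    rw [hb] at this
    exact hm1 (Subtype.ext this)

end H40.HalfTr
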