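/- Tower O84: the 5-part of the order of `E₈(2)`. -/
import Cfsg.Agent.S1065
import Cfsg.Agent.H12.O84Gam

set_option autoImplicit false

namespace H40.O84N56

theorem n56 : ¬ 5 ^ 6 ∣ Nat.card ↥(Cfsg.Lie.chevE8.group (ZMod 2)) := by
  rw [Cfsg.Agent.S1065.result (F := ZMod 2) (q := 2) (ZMod.card 2)]
  norm_num

theorem card_ne_zero : Nat.card ↥(Cfsg.Lie.chevE8.group (ZMod 2)) ≠ 0 := by
  rw [Cfsg.Agent.S1065.result (F := ZMod 2) (q := 2) (ZMod.card 2)]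
  norm_num

theorem finite_G2 : Finite ↥(Cfsg.Lie.chevE8.group (ZMod 2)) :=
  Nat.finite_of_card_ne_zero card_ne_zero

attribute [local instance] H65.tabE8 H65.commE8

theorem n56_gam (L : List ℕ) :
    ¬ 5 ^ 6 ∣ Nat.card ↥(H46.O84.Gam Cfsg.Lie.chevE8 H12.O84.K2 L) := by
  obtain ⟨e⟩ := H12.O84.nonempty_gam L
  rw [Nat.card_congr e.toEquiv]
  exact n56

theorem finite_gam (L : List ℕ) : Finite ↥(H46.O84.Gam Cfsg.Lie.chevE8 H12.O84.K2 L) := by
  obtain ⟨e⟩ := H12.O84.nonempty_gam L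
  have := finite_G2
  exact Finite.of_equiv _ e.symm.toEquiv

end H40.O84N56
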