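import Cfsg.Agent.Base

/-! Regular subgroups of `GL₂(p)` on non-zero vectors: a small verification kit. -/

set_option autoImplicit false

namespace H40.Reg2

open Matrix

abbrev T4 (R : Type) := R × R × R × R

variable {R : Type} [CommRing R]

def mulT (a b : T4 R) : T4 R :=
  (a.1 * b.1 + a.2.1 * b.2.2.1, a.1 * b.2.1 + a.2.1 * b.2.2.2,
   a.2.2.1 * b.1 + a.2.2.2 * b.2.2.1, a.2.2.1 * b.2.1 + a.2.2.2 * b.2.2.2)

def smulT (s : R) (a : T4 R) : T4 R := (s * a.1, s * a.2.1, s * a.2.2.1, s * a.2.2.2)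

def oneT : T4 R := (1, 0, 0, 1)

def det1 (a : T4 R) : R := (a.1 - 1) * (a.2.2.2 - 1) - a.2.1 * a.2.2.1

def ent (g : GL (Fin 2) R) : T4 R :=
  ((g : Matrix (Fin 2) (Fin 2) R) 0 0, (g : Matrix (Fin 2) (Fin 2) R) 0 1,
   (g : Matrix (Fin 2) (Fin 2) R) 1 0, (g : Matrix (Fin 2) (Fin 2) R) 1 1)

theorem ent_mul (g h : GL (Fin 2) R) : ent (g * h) = mulT (ent g) (ent h) := by
  simp [ent, mulT, Matrix.mul_apply, Fin.sum_univ_two]

theorem ent_one : ent (1 : GL (Fin 2) R) = oneT := by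
  simp [ent, oneT]

theorem ent_inj : Function.Injective (ent : GL (Fin 2) R → T4 R) := by
  intro g h e
  simp only [ent, Prod.mk.injEq] at e
  obtain ⟨e1, e2, e3, e4⟩ := e
  ext i j
  fin_cases i <;> fin_cases j <;> simpa

theorem det_sub_one (g : GL (Fin 2) R) :
    ((g : Matrix (Fin 2) (Fin 2) R) - 1).det = det1 (ent g) := by
  simp [Matrix.det_fin_two, det1, ent]

theorem mulT_smulT (s : R) (a b : T4 R) : mulT a (smulT s b) = smulT s (mulT a b) := by
  simp only [mulT, smulT, Prod.mk.injEq]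
  refine ⟨?_, ?_, ?_, ?_⟩ <;> ring

/-- value of a word in a list of generators -/
def evalW (gs : List (T4 R)) : List ℕ → T4 R
  | [] => oneT
  | i :: w => mulT (gs.getD i oneT) (evalW gs w)

theorem exists_evalW (H : Subgroup (GL (Fin 2) R)) (gs : List (T4 R))
    (hg : ∀ x ∈ gs, ∃ g ∈ H, ent g = x) (w : List ℕ) : ∃ h ∈ H, ent h = evalW gs w := by
  induction w with
  | nil => exact ⟨1, H.one_mem, ent_one⟩
  | cons i w ih =>
    obtain ⟨h, hh, e⟩ := ih
    have : ∃ g ∈ H, ent g = gs.getD i oneT := by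
      by_cases hi : i < gs.length
      · rw [List.getD_eq_getElem _ _ hi]
        exact hg _ (List.getElem_mem hi)
      · rw [List.getD_eq_default _ _ (not_lt.1 hi)]
        exact ⟨1, H.one_mem, ent_one⟩
    obtain ⟨g, hgH, eg⟩ := this
    exact ⟨g * h, H.mul_mem hgH hh, by rw [ent_mul, eg, e]; rfl⟩

theorem clo_ind [Finite R] (s : Set (GL (Fin 2) R)) (P : T4 R → Prop) (h1 : P oneT)
    (hs : ∀ g ∈ s, ∀ x, P x → P (mulT (ent g) x)) (h : GL (Fin 2) R)
    (hh : h ∈ Subgroup.closure s) : P (ent h) := by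
  have h' : h ∈ Submonoid.closure s := by
    have := Subgroup.closure_toSubmonoid_of_finite (s := s)
    rw [← this]; exact hh
  clear hh
  induction h' using Submonoid.closure_induction_left with
  | one => rw [ent_one]; exact h1
  | mul_left x hx y _ ih => rw [ent_mul]; exact hs x hx _ ih

theorem card_eq (H : Subgroup (GL (Fin 2) R)) (L : List (T4 R)) (hn : L.Nodup)
    (h1 : ∀ h ∈ H, ent h ∈ L) (h2 : ∀ x ∈ L, ∃ h ∈ H, ent h = x) : Nat.card H = L.length := by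
  classical
  rw [← List.toFinset_card_of_nodup hn, ← Nat.card_eq_finsetCard]
  refine Nat.card_congr (Equiv.ofBijective (fun h => ⟨ent h.1, by simpa using h1 _ h.2⟩) ⟨?_, ?_⟩)
  · intro a b e
    exact Subtype.ext (ent_inj (congrArg Subtype.val e))
  · rintro ⟨x, hx⟩
    obtain ⟨h, hh, e⟩ := h2 x (by simpa using hx)
    exact ⟨⟨h, hh⟩, Subtype.ext e⟩

section
variable {p : ℕ} [Fact p.Prime]

theorem inj_of_free (H : Subgroup (GL (Fin 2) (ZMod p)))
    (hf : ∀ h ∈ H, h ≠ 1 → det1 (ent h) ≠ 0) (v : Fin 2 → ZMod p) (hv : v ≠ 0) :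
    ∃ f : H → {w : Fin 2 → ZMod p // w ≠ 0}, Function.Injective f ∧
      ∀ h, (f h).1 = Matrix.mulVec ((h : GL (Fin 2) (ZMod p)) : Matrix (Fin 2) (Fin 2) (ZMod p)) v := by
  have key : ∀ g : GL (Fin 2) (ZMod p),
      Function.Injective (Matrix.mulVec (g : Matrix (Fin 2) (Fin 2) (ZMod p))) := fun g =>
    Matrix.mulVec_injective_iff_isUnit.2 g.isUnit
  refine ⟨fun h => ⟨Matrix.mulVec ((h : GL (Fin 2) (ZMod p)) : Matrix (Fin 2) (Fin 2) (ZMod p)) v, ?_⟩,
    ?_, fun _ => rfl⟩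
  · intro e
    exact hv (key _ (by rw [e, Matrix.mulVec_zero]))
  · intro a b e
    have e' := congrArg Subtype.val e
    simp only at e'
    by_contra hne
    have hne' : ((b⁻¹ * a : H) : GL (Fin 2) (ZMod p)) ≠ 1 := by
      intro h
      apply hne
      have : b⁻¹ * a = 1 := Subtype.ext h
      rw [inv_mul_eq_one] at this
      exact this.symm
    have hd := hf _ (b⁻¹ * a).2 hne'
    rw [← det_sub_one] at hd
    apply hd
    rw [← Matrix.exists_mulVec_eq_zero_iff]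
    refine ⟨v, hv, ?_⟩
    rw [Matrix.sub_mulVec, Matrix.one_mulVec, sub_eq_zero]
    apply key (b : GL (Fin 2) (ZMod p))
    rw [Matrix.mulVec_mulVec, ← e']
    congr 1
    simp [← Matrix.mul_assoc]

theorem card_ne_zero : Nat.card {w : Fin 2 → ZMod p // w ≠ 0} = p ^ 2 - 1 := by
  classical
  rw [Nat.card_eq_fintype_card, Fintype.card_subtype_compl]
  simp [ZMod.card]

theorem card_le (H : Subgroup (GL (Fin 2) (ZMod p)))
    (hf : ∀ h ∈ H, h ≠ 1 → det1 (ent h) ≠ 0) : Nat.card H ≤ p ^ 2 - 1 := by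
  obtain ⟨f, hi, -⟩ := inj_of_free H hf (fun _ => 1) (fun e => one_ne_zero (congrFun e 0))
  rw [← card_ne_zero]
  exact Nat.card_le_card_of_injective f hi

theorem regular (H : Subgroup (GL (Fin 2) (ZMod p)))
    (hf : ∀ h ∈ H, h ≠ 1 → det1 (ent h) ≠ 0) (hc : Nat.card H = p ^ 2 - 1)
    (v w : Fin 2 → ZMod p) (hv : v ≠ 0) (hw : w ≠ 0) :
    ∃! h : H, Matrix.mulVec ((h : GL (Fin 2) (ZMod p)) : Matrix (Fin 2) (Fin 2) (ZMod p)) v = w := by
  obtain ⟨f, hi, hfv⟩ := inj_of_free H hf v hv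
  have hb : Function.Bijective f := hi.bijective_of_nat_card_le (by rw [card_ne_zero, hc])
  obtain ⟨h, e⟩ := hb.2 ⟨w, hw⟩
  refine ⟨h, by show _ = _; rw [← hfv, e], fun y hy => hi ?_⟩
  rw [e]
  exact Subtype.ext (by rw [hfv]; exact hy)

end

end H40.Reg2
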