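import Cfsg.Agent.H40.Reg2

/-! Natural-number checks for `H40.Reg2`. -/

set_option autoImplicit false

namespace H40.Reg2

def mulN (p : ℕ) (a b : T4 ℕ) : T4 ℕ :=
  ((a.1 * b.1 + a.2.1 * b.2.2.1) % p, (a.1 * b.2.1 + a.2.1 * b.2.2.2) % p,
   (a.2.2.1 * b.1 + a.2.2.2 * b.2.2.1) % p, (a.2.2.1 * b.2.1 + a.2.2.2 * b.2.2.2) % p)

def smulN (p s : ℕ) (a : T4 ℕ) : T4 ℕ :=
  (s * a.1 % p, s * a.2.1 % p, s * a.2.2.1 % p, s * a.2.2.2 % p)

def castT (p : ℕ) (a : T4 ℕ) : T4 (ZMod p) := (a.1, a.2.1, a.2.2.1, a.2.2.2)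

def eqB (a b : T4 ℕ) : Bool :=
  Nat.beq a.1 b.1 && (Nat.beq a.2.1 b.2.1 && (Nat.beq a.2.2.1 b.2.2.1 && Nat.beq a.2.2.2 b.2.2.2))

def memB (a : T4 ℕ) (L : List (T4 ℕ)) : Bool := L.any (eqB a)

def evalN (p : ℕ) (gs : List (T4 ℕ)) : List ℕ → T4 ℕ
  | [] => (1, 0, 0, 1)
  | i :: w => mulN p (gs.getD i (1, 0, 0, 1)) (evalN p gs w)

def ltB (p : ℕ) (a : T4 ℕ) : Bool :=
  Nat.blt a.1 p && (Nat.blt a.2.1 p && (Nat.blt a.2.2.1 p && Nat.blt a.2.2.2 p))

def nodupB : List (T4 ℕ) → Bool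
  | [] => true
  | a :: L => !(memB a L) && nodupB L

def freeB (p : ℕ) (a : T4 ℕ) : Bool :=
  eqB a (1, 0, 0, 1) ||
    !(Nat.beq ((a.1 * a.2.2.2 + 1) % p) ((a.1 + a.2.2.2 + a.2.1 * a.2.2.1) % p))

def zipB (p : ℕ) (gs : List (T4 ℕ)) : List (List ℕ) → List (T4 ℕ) → Bool
  | _, [] => true
  | [], _ :: _ => false
  | w :: W, a :: L => eqB (evalN p gs w) a && zipB p gs W L

theorem eqB_iff {a b : T4 ℕ} : eqB a b = true ↔ a = b := by
  obtain ⟨a1, a2, a3, a4⟩ := a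
  obtain ⟨b1, b2, b3, b4⟩ := b
  simp [eqB, Nat.beq_eq]

theorem memB_iff {a : T4 ℕ} {L : List (T4 ℕ)} : memB a L = true ↔ a ∈ L := by
  simp [memB, eqB_iff]

theorem nodup_of {L : List (T4 ℕ)} (h : nodupB L = true) : L.Nodup := by
  induction L with
  | nil => exact List.nodup_nil
  | cons a L ih =>
    simp only [nodupB, Bool.and_eq_true, Bool.not_eq_true'] at h
    refine List.nodup_cons.2 ⟨fun hm => ?_, ih h.2⟩
    rw [memB_iff.2 hm] at h
    exact absurd h.1 (by simp)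

variable {p : ℕ}

theorem cast_mulN (a b : T4 ℕ) : castT p (mulN p a b) = mulT (castT p a) (castT p b) := by
  simp [castT, mulN, mulT]

theorem cast_smulN (s : ℕ) (a : T4 ℕ) : castT p (smulN p s a) = smulT (s : ZMod p) (castT p a) := by
  simp [castT, smulN, smulT]

theorem cast_one : castT p (1, 0, 0, 1) = oneT := by
  simp [castT, oneT]

theorem cast_evalN (gs : List (T4 ℕ)) (w : List ℕ) :
    castT p (evalN p gs w) = evalW (gs.map (castT p)) w := by
  induction w with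
  | nil => exact cast_one
  | cons i w ih =>
    show castT p (mulN p (gs.getD i (1, 0, 0, 1)) (evalN p gs w)) =
      mulT ((gs.map (castT p)).getD i oneT) (evalW (gs.map (castT p)) w)
    rw [cast_mulN, ih, ← cast_one, List.getD_map]

theorem exists_of_zipB (gs : List (T4 ℕ)) : ∀ (W : List (List ℕ)) (L : List (T4 ℕ)),
    zipB p gs W L = true → ∀ a ∈ L, ∃ w, evalN p gs w = a
  | _, [], _, a, ha => absurd ha (by simp)
  | [], _ :: _, h, _, _ => absurd h (by simp [zipB])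
  | w :: W, b :: L, h, a, ha => by
    simp only [zipB, Bool.and_eq_true] at h
    rcases List.mem_cons.1 ha with rfl | ha
    · exact ⟨w, eqB_iff.1 h.1⟩
    · exact exists_of_zipB gs W L h.2 a ha

theorem nodup_cast {L : List (T4 ℕ)} (h : nodupB L = true) (hl : L.all (ltB p) = true) :
    (L.map (castT p)).Nodup := by
  refine List.Nodup.map_on ?_ (nodup_of h)
  intro a ha b hb e
  have h1 := List.all_eq_true.1 hl a ha
  have h2 := List.all_eq_true.1 hl b hb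
  obtain ⟨a1, a2, a3, a4⟩ := a
  obtain ⟨b1, b2, b3, b4⟩ := b
  simp only [ltB, Bool.and_eq_true, Nat.blt_eq] at h1 h2
  simp only [castT, Prod.mk.injEq, ZMod.natCast_eq_natCast_iff'] at e
  rw [Nat.mod_eq_of_lt h1.1, Nat.mod_eq_of_lt h1.2.1, Nat.mod_eq_of_lt h1.2.2.1,
    Nat.mod_eq_of_lt h1.2.2.2, Nat.mod_eq_of_lt h2.1, Nat.mod_eq_of_lt h2.2.1,
    Nat.mod_eq_of_lt h2.2.2.1, Nat.mod_eq_of_lt h2.2.2.2] at e
  obtain ⟨rfl, rfl, rfl, rfl⟩ := e
  rfl

theorem free_of {a : T4 ℕ} (h : freeB p a = true) (h1 : castT p a ≠ oneT) :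
    det1 (castT p a) ≠ 0 := by
  simp only [freeB, Bool.or_eq_true, Bool.not_eq_true'] at h
  rcases h with h | h
  · exact absurd (by rw [eqB_iff.1 h, cast_one]) h1
  · intro e
    have : (a.1 * a.2.2.2 + 1) % p = (a.1 + a.2.2.2 + a.2.1 * a.2.2.1) % p := by
      rw [← ZMod.natCast_eq_natCast_iff']
      simp only [det1, castT] at e
      push_cast
      linear_combination e
    rw [this] at h
    simp at h

/-- the closure of the generators is the listed set -/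
theorem clo_spec [NeZero p] (s : Set (GL (Fin 2) (ZMod p))) (gs : List (T4 ℕ))
    (W : List (List ℕ)) (L : List (T4 ℕ))
    (hs : ∀ g ∈ s, ∃ x ∈ gs, ent g = castT p x) (hs' : ∀ x ∈ gs, ∃ g ∈ s, ent g = castT p x)
    (h1 : memB (1, 0, 0, 1) L = true) (hz : zipB p gs W L = true)
    (hc : gs.all (fun g => L.all fun x => memB (mulN p g x) L) = true)
    (hn : nodupB L = true) (hl : L.all (ltB p) = true) :
    Nat.card (Subgroup.closure s) = L.length ∧
      ∀ h ∈ Subgroup.closure s, ∃ x ∈ L, ent h = castT p x := by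
  have key : ∀ h ∈ Subgroup.closure s, ∃ x ∈ L, ent h = castT p x := by
    intro h hh
    refine clo_ind s (fun y => ∃ x ∈ L, y = castT p x) ⟨_, memB_iff.1 h1, cast_one.symm⟩ ?_ h hh
    rintro g hg y ⟨x, hx, rfl⟩
    obtain ⟨z, hz, e⟩ := hs g hg
    refine ⟨mulN p z x, memB_iff.1 (List.all_eq_true.1 (List.all_eq_true.1 hc z hz) x hx), ?_⟩
    rw [cast_mulN, e]
  refine ⟨?_, key⟩
  rw [← List.length_map (f := castT p)]
  refine card_eq _ _ (nodup_cast hn hl) ?_ ?_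
  · intro h hh
    obtain ⟨x, hx, e⟩ := key h hh
    exact List.mem_map.2 ⟨x, hx, e.symm⟩
  · intro y hy
    obtain ⟨x, hx, rfl⟩ := List.mem_map.1 hy
    obtain ⟨w, rfl⟩ := exists_of_zipB gs W L hz x hx
    rw [cast_evalN]
    refine exists_evalW _ _ ?_ w
    intro z hz
    obtain ⟨u, hu, rfl⟩ := List.mem_map.1 hz
    obtain ⟨g, hg, e⟩ := hs' u hu
    exact ⟨g, Subgroup.subset_closure hg, e⟩

theorem ne_oneT {R : Type} [CommRing R] {h : GL (Fin 2) R} (h1 : h ≠ 1) : ent h ≠ oneT :=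
  fun e => h1 (ent_inj (by rw [e, ent_one]))

end H40.Reg2
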