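import Cfsg.Agent.Base

/-! No sharply 2-transitive sets in `PΓL(n, q)`, `n ≥ 3` (Müller–Nagy counting argument). -/

set_option autoImplicit false

namespace H40.SharpProj

open Projectivization

variable {F V : Type*} [Field F] [Finite F] [AddCommGroup V] [Module F V] [Finite V]

omit [Finite F] [Finite V] in
theorem rep_mem (U : Submodule F V) (v : V) (hv : v ≠ 0) : (mk F v hv).rep ∈ U ↔ v ∈ U := by
  obtain ⟨a, ha⟩ := exists_smul_eq_mk_rep F v hv
  rw [← ha, Units.smul_def]
  exact U.smul_mem_iff a.ne_zero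

theorem card_pts (U : Submodule F V) (hU : U ≠ ⊥) :
    ((Nat.card {x : Projectivization F V // x.rep ∈ U} : ℕ) : F) = 1 := by
  have e : Nat.card (Projectivization F U) = Nat.card {x : Projectivization F V // x.rep ∈ U} := by
    refine Nat.card_congr (Equiv.ofBijective
      (fun y => ⟨Projectivization.map U.subtype U.injective_subtype y, ?_⟩) ⟨?_, ?_⟩)
    · induction y using Projectivization.ind with
      | h v hv => rw [map_mk, rep_mem]; exact v.2
    · intro a b h
      exact map_injective (τ := RingHom.id F) _ U.injective_subtype (congrArg Subtype.val h)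
    · rintro ⟨x, hx⟩
      refine ⟨mk F ⟨x.rep, hx⟩ fun h => x.rep_nonzero (congrArg Subtype.val h), Subtype.ext ?_⟩
      exact mk_rep x
  have h := Projectivization.card' F U
  have hF : ((Nat.card F : ℕ) : F) = 0 := by
    have := Fintype.ofFinite F
    rw [Nat.card_eq_fintype_card]
    exact FiniteField.cast_card_eq_zero F
  have hU0 : ((Nat.card U : ℕ) : F) = 0 := by
    rw [Module.natCard_eq_pow_finrank (K := F), Nat.cast_pow, hF]
    refine zero_pow fun h0 => hU ?_
    exact Submodule.finrank_eq_zero.1 h0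
  rw [← e]
  rw [h, Nat.cast_add, Nat.cast_mul, Nat.cast_sub Nat.card_pos, hF] at hU0
  linear_combination -hU0

theorem count {P K : Type*} [Finite P] [CommRing K] (S : Set (Equiv.Perm P)) (a : P)
    (h : ∀ c d : P, c ≠ a → d ≠ a → ∃! s, s ∈ S ∧ s a = a ∧ s c = d) (B : P → Prop) (hB : ¬ B a)
    (c : P) (hc : c ≠ a) (h1 : ∀ s ∈ S, ((Nat.card {x // B x ∧ B (s x)} : ℕ) : K) = 1) :
    ((Nat.card P : ℕ) : K) - 1 = ((Nat.card {x // B x} : ℕ) : K) ^ 2 := by
  classical
  have := Fintype.ofFinite P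
  let T := {s : Equiv.Perm P // s ∈ S ∧ s a = a}
  have e1 : Nat.card T + 1 = Nat.card P := by
    have : Nat.card T = Nat.card {d // ¬ d = a} := by
      refine Nat.card_congr (Equiv.ofBijective (fun s => ⟨s.1 c, fun e => hc ?_⟩) ⟨?_, ?_⟩)
      · exact s.1.injective (e.trans s.2.2.symm)
      · intro s t e
        have e' : s.1 c = t.1 c := congrArg Subtype.val e
        exact Subtype.ext ((h c (t.1 c) hc fun e => hc (t.1.injective (e.trans t.2.2.symm))).unique
          ⟨s.2.1, s.2.2, e'⟩ ⟨t.2.1, t.2.2, rfl⟩)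
      · rintro ⟨d, hd⟩
        obtain ⟨s, hs, -⟩ := h c d hc hd
        exact ⟨⟨s, hs.1, hs.2.1⟩, Subtype.ext hs.2.2⟩
    rw [this, Nat.card_eq_fintype_card, Nat.card_eq_fintype_card, Fintype.card_subtype_compl,
      Fintype.card_subtype_eq]
    have : 0 < Fintype.card P := Fintype.card_pos_iff.2 ⟨a⟩
    omega
  have e2 : Nat.card (Σ s : T, {x // B x ∧ B (s.1 x)}) = Nat.card ({x // B x} × {x // B x}) := by
    refine Nat.card_congr (Equiv.ofBijective
      (fun y => (⟨y.2.1, y.2.2.1⟩, ⟨y.1.1 y.2.1, y.2.2.2⟩)) ⟨?_, ?_⟩)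
    · rintro ⟨s, x, hx⟩ ⟨t, y, hy⟩ e
      simp only [Prod.mk.injEq, Subtype.mk.injEq] at e
      obtain ⟨rfl, e⟩ := e
      have : s = t := Subtype.ext ((h x (t.1 x) (fun e => hB (e ▸ hx.1))
        (fun e => hB (e ▸ hy.2))).unique ⟨s.2.1, s.2.2, e⟩ ⟨t.2.1, t.2.2, rfl⟩)
      subst this
      rfl
    · rintro ⟨⟨x, hx⟩, ⟨y, hy⟩⟩
      obtain ⟨s, hs, -⟩ := h x y (fun e => hB (e ▸ hx)) (fun e => hB (e ▸ hy))
      exact ⟨⟨⟨s, hs.1, hs.2.1⟩, x, hx, hs.2.2 ▸ hy⟩, Prod.ext rfl (Subtype.ext hs.2.2)⟩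
  rw [Nat.card_sigma, Nat.card_prod] at e2
  have e3 := congrArg (Nat.cast : ℕ → K) e2
  rw [Nat.cast_sum, Finset.sum_congr rfl fun (s : T) _ => h1 s.1 s.2.1] at e3
  rw [← e1, sq, ← Nat.cast_mul, ← e3]
  simp

theorem main (n : ℕ) (hn : 3 ≤ n) (S : Set (Equiv.Perm (Projectivization F (Fin n → F))))
    (hS : ∀ s ∈ S, ∃ (σ : F ≃+* F) (f : (Fin n → F) →ₛₗ[(σ : F →+* F)] (Fin n → F))
      (hf : Function.Injective f), ∀ x, s x = Projectivization.map f hf x) :
    ¬ (∀ a b c d : Projectivization F (Fin n → F), a ≠ b → c ≠ d →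
        ∃! s, s ∈ S ∧ s a = c ∧ s b = d) := by
  classical
  intro h
  let i : Fin n := ⟨0, by omega⟩
  let W : Submodule F (Fin n → F) := LinearMap.ker (LinearMap.proj i)
  have key : ∀ (σ : F →+* F) [RingHomSurjective σ] (f : (Fin n → F) →ₛₗ[σ] (Fin n → F)),
      W ⊓ W.comap f ≠ ⊥ := by
    intro σ _ f hb
    have hi : Function.Injective fun v : Fin n → F => (v i, f v i) := fun u v e => by
      simp only [Prod.mk.injEq] at e
      have : u - v ∈ W ⊓ W.comap f := by
        constructor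
        · simp [W, e.1]
        · simp [W, e.2]
      rw [hb, Submodule.mem_bot] at this
      exact sub_eq_zero.1 this
    have h1 := Nat.card_le_card_of_injective _ hi
    rw [Nat.card_prod, Nat.card_fun, Nat.card_eq_fintype_card (α := Fin n), Fintype.card_fin,
      ← sq] at h1
    have := (Nat.pow_le_pow_iff_right (Finite.one_lt_card (α := F))).1 h1
    omega
  have hW : W ≠ ⊥ := fun e => key (RingHom.id F) LinearMap.id (by rw [e]; simp)
  have he : (Pi.single i 1 : Fin n → F) ≠ 0 := fun e => by simpa using congrFun e i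
  let a := mk F _ he
  have ha : a.rep ∉ W := by
    rw [rep_mem]
    simp [W]
  obtain ⟨w, hw, hw0⟩ := Submodule.exists_mem_ne_zero_of_ne_bot hW
  have hc := count (K := F) S a (fun c d hc hd => h a c a d hc.symm hd.symm) (fun x => x.rep ∈ W) ha
    (mk F w hw0) (fun e => ha (e ▸ (rep_mem W w hw0).2 hw)) (fun s hs => by
      obtain ⟨σ, f, hf, e⟩ := hS s hs
      rw [← card_pts _ (key σ f)]
      congr 1
      refine Nat.card_congr (Equiv.subtypeEquivRight fun x => ?_)
      rw [e]
      induction x using Projectivization.ind with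
      | h v hv => rw [map_mk, rep_mem, rep_mem, rep_mem]; rfl)
  have h2 := card_pts (⊤ : Submodule F (Fin n → F)) fun e => hW (eq_bot_iff.2 (e ▸ le_top))
  rw [Nat.card_congr (Equiv.subtypeUnivEquiv fun _ => Submodule.mem_top)] at h2
  rw [card_pts W hW, h2] at hc
  simp at hc

end H40.SharpProj
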