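import Cfsg.Agent.Base

/-! Automorphisms of odd order of doubly transitive groups (incidence matrix argument). -/

set_option autoImplicit false

namespace H40.TwoAut

open Matrix

variable {G Ω : Type*} [Group G] [MulAction G Ω] [Fintype Ω] [DecidableEq Ω]

def Inv (β : MulAut G) (M : Matrix Ω Ω ℤ) : Prop := ∀ (g : G) x y, M (β g • x) (g • y) = M x y

omit [DecidableEq Ω] in
theorem Inv.mul {β γ : MulAut G} {M N : Matrix Ω Ω ℤ} (hM : Inv β M) (hN : Inv γ N) :
    Inv (β * γ) (M * N) := by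
  intro g x y
  simp only [Matrix.mul_apply, MulAut.mul_apply]
  rw [← Equiv.sum_comp (MulAction.toPerm (γ g) : Equiv.Perm Ω)]
  refine Finset.sum_congr rfl fun z _ => ?_
  simp only [MulAction.toPerm_apply]
  rw [hM, hN]

theorem Inv.pow {β : MulAut G} {M : Matrix Ω Ω ℤ} (hM : Inv β M) (m : ℕ) : Inv (β ^ m) (M ^ m) := by
  induction m with
  | zero =>
    intro g x y
    simp [Matrix.one_apply]
  | succ m ih => rw [pow_succ, pow_succ]; exact ih.mul hM

omit [Fintype Ω] [DecidableEq Ω] in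
theorem Inv.transpose {β : MulAut G} {M : Matrix Ω Ω ℤ} (hM : Inv β M) : Inv β⁻¹ Mᵀ := by
  intro g x y
  simp only [Matrix.transpose_apply]
  have := hM (β⁻¹ g) y x
  simpa using this

def J : Matrix Ω Ω ℤ := Matrix.of fun _ _ => 1

omit [Fintype Ω] in
theorem Inv.form (h2 : ∀ a b c d : Ω, a ≠ b → c ≠ d → ∃ g : G, g • a = c ∧ g • b = d)
    {a b : Ω} (hab : a ≠ b) {M : Matrix Ω Ω ℤ} (hM : Inv (1 : MulAut G) M) :
    M = (M a a - M a b) • (1 : Matrix Ω Ω ℤ) + M a b • J := by
  ext x y
  by_cases e : x = y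
  · subst e
    obtain ⟨g, hg, -⟩ : ∃ g : G, g • a = x ∧ True := by
      by_cases hx : x = a
      · exact ⟨1, by rw [hx, one_smul], trivial⟩
      · obtain ⟨g, h1, -⟩ := h2 a x x a (Ne.symm hx) hx
        exact ⟨g, h1, trivial⟩
    have := hM g a a
    simp only [MulAut.one_apply, hg] at this
    simp only [Matrix.add_apply, Matrix.smul_apply, Matrix.one_apply_eq, J, Matrix.of_apply,
      smul_eq_mul, this]
    ring
  · obtain ⟨g, h1, h3⟩ := h2 a b x y hab e
    have := hM g a b
    simp only [MulAut.one_apply, h1, h3] at this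
    simp only [Matrix.add_apply, Matrix.smul_apply, Matrix.one_apply_ne e, J, Matrix.of_apply,
      smul_eq_mul, this]
    ring

omit [Fintype Ω] in
theorem coef {a b : Ω} (hab : a ≠ b) {p q r s : ℤ}
    (h : p • (1 : Matrix Ω Ω ℤ) + q • J = r • (1 : Matrix Ω Ω ℤ) + s • J) : p = r := by
  have h1 := congrFun (congrFun h a) a
  have h2 := congrFun (congrFun h a) b
  simp only [Matrix.add_apply, Matrix.smul_apply, Matrix.one_apply_ne hab, Matrix.one_apply_eq, J,
    Matrix.of_apply, smul_eq_mul] at h1 h2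
  omega

omit [DecidableEq Ω] in
theorem JJ : (J : Matrix Ω Ω ℤ) * J = (Fintype.card Ω : ℤ) • J := by
  ext x y
  simp [J, Matrix.mul_apply]

theorem arith {n k N l a b : ℤ} {j : ℕ} (hn : 2 ≤ n) (hk : 0 < k) (hkn : k ≤ n) (hc : IsCoprime k n)
    (hl : 0 ≤ l) (h1 : N + l = k) (h2 : N + l * n = k ^ 2) (h3 : N ^ (2 * j + 1) = a ^ 2)
    (h4 : a + b * n = k ^ (2 * j + 1)) : k = 1 ∨ k = n - 1 := by
  have hkn' : k ≠ n := by
    rintro rfl
    have := Int.isUnit_iff.1 (isCoprime_self.1 hc)
    omega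
  have hN0 : N ≠ 0 := by
    rintro rfl
    have : l = k := by omega
    subst this
    have : l * (n - l) = 0 := by linarith
    rcases mul_eq_zero.1 this with h | h <;> omega
  obtain ⟨s, hs⟩ : N ^ j ∣ a := by
    rw [← Int.pow_dvd_pow_iff (n := 2) (by norm_num), ← h3]
    exact ⟨N, by ring⟩
  have hsN : s ^ 2 = N := by
    have h5 : (N ^ j) ^ 2 * (s ^ 2 - N) = 0 := by
      rw [hs] at h3
      linear_combination -h3
    rcases mul_eq_zero.1 h5 with h | h
    · exact absurd (pow_eq_zero_iff (by norm_num) |>.1 h) (pow_ne_zero _ hN0)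
    · linarith
  have hd : n ∣ k - s := by
    have e1 : n ∣ (k ^ 2) ^ j - N ^ j := by
      refine dvd_trans ?_ (sub_dvd_pow_sub_pow _ _ j)
      exact ⟨l, by linarith⟩
    obtain ⟨c, hc'⟩ := e1
    have e2 : n ∣ (k ^ 2) ^ j * (k - s) := by
      refine ⟨b - c * s, ?_⟩
      rw [hs] at h4
      linear_combination -h4 - s * hc'
    exact (IsCoprime.pow_right (IsCoprime.pow_right hc.symm)).dvd_of_dvd_mul_left e2
  obtain ⟨c, hc'⟩ := hd
  have hs1 : s ≤ k := by nlinarith [sq_nonneg (s - 1), sq_nonneg s]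
  have hs2 : -k ≤ s := by nlinarith [sq_nonneg (s + 1), sq_nonneg s]
  have hc0 : 0 ≤ c := by
    by_contra h
    push Not at h
    nlinarith
  have hc1 : c ≤ 1 := by
    by_contra h
    push Not at h
    have : k < n := lt_of_le_of_ne hkn hkn'
    nlinarith
  rcases (by omega : c = 0 ∨ c = 1) with rfl | rfl
  · left
    have : s = k := by linarith
    subst this
    have : l * n = 0 := by linarith
    rcases mul_eq_zero.1 this with h | h
    · have : s * (s - 1) = 0 := by linarith
      rcases mul_eq_zero.1 this with h | h <;> omega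
    · omega
  · right
    have e : n * (k + s - l) = 0 := by
      have : k = n + s := by linarith
      subst this
      linear_combination -h2 - hsN
    rcases mul_eq_zero.1 e with h | h
    · omega
    · have : s * (s + 1) = 0 := by linarith
      rcases mul_eq_zero.1 this with h' | h'
      · subst h'
        simp at hsN
        exact absurd hsN.symm hN0
      · omega

theorem main_mat (h2 : ∀ a b c d : Ω, a ≠ b → c ≠ d → ∃ g : G, g • a = c ∧ g • b = d)
    (hn : 2 ≤ Fintype.card Ω) (β : MulAut G) (j : ℕ) (hβ : β ^ (2 * j + 1) = 1)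
    (A : Matrix Ω Ω ℤ) (hA : Inv β A) (h01 : ∀ x y, A x y = 0 ∨ A x y = 1) (k : ℤ) (hk : 0 < k)
    (hcol : ∀ y, ∑ x, A x y = k) (hc : IsCoprime k (Fintype.card Ω : ℤ)) :
    k = 1 ∨ k = Fintype.card Ω - 1 := by
  obtain ⟨a, b, hab⟩ := Fintype.exists_pair_of_one_lt_card (α := Ω) (by omega)
  have htr : ∀ x y : Ω, ∃ g : G, g • x = y := fun x y => by
    by_cases hx : x = y
    · exact ⟨1, by rw [hx, one_smul]⟩
    · obtain ⟨g, h1, -⟩ := h2 x y y x hx (Ne.symm hx)
      exact ⟨g, h1⟩
  have hrow0 : ∀ x, ∑ y, A x y = ∑ y, A a y := fun x => by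
    obtain ⟨g, hg⟩ := htr a x
    rw [← Equiv.sum_comp (MulAction.toPerm (β⁻¹ g) : Equiv.Perm Ω)]
    refine Finset.sum_congr rfl fun y _ => ?_
    have := hA (β⁻¹ g) a y
    simpa [hg] using this
  have hn' : (2 : ℤ) ≤ Fintype.card Ω := by exact_mod_cast hn
  have hrow : ∀ x, ∑ y, A x y = k := fun x => by
    have e : ∑ x, ∑ y, A x y = ∑ y, ∑ x, A x y := Finset.sum_comm
    simp only [hrow0, hcol, Finset.sum_const, Finset.card_univ, nsmul_eq_mul] at e
    rw [hrow0]
    exact mul_left_cancel₀ (by omega) e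
  have hAJ : A * J = k • J := by
    ext x y
    simp [J, Matrix.mul_apply, hrow]
  have hJA : J * Aᵀ = k • J := by
    ext x y
    simp [J, Matrix.mul_apply, hrow]
  have hATJ : Aᵀ * J = k • J := by
    ext x y
    simp [J, Matrix.mul_apply, hcol]
  have f1 := Inv.form h2 hab (by simpa using hA.mul hA.transpose : Inv (1 : MulAut G) (A * Aᵀ))
  have f2 := Inv.form h2 hab (by simpa [hβ] using hA.pow (2 * j + 1) :
    Inv (1 : MulAut G) (A ^ (2 * j + 1)))
  set l := (A * Aᵀ) a b with hl
  set N := (A * Aᵀ) a a - l with hN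
  set b' := (A ^ (2 * j + 1)) a b
  set a' := (A ^ (2 * j + 1)) a a - b'
  have hdiag : (A * Aᵀ) a a = k := by
    rw [← hrow a, Matrix.mul_apply]
    refine Finset.sum_congr rfl fun y _ => ?_
    rcases h01 a y with h | h <;> simp [h]
  have hl0 : 0 ≤ l := by
    rw [hl, Matrix.mul_apply]
    refine Finset.sum_nonneg fun y _ => ?_
    rcases h01 a y with h | h <;> rcases h01 b y with h' | h' <;> simp [h, h']
  have hkn : k ≤ Fintype.card Ω := by
    rw [← hrow a]
    calc ∑ y, A a y ≤ ∑ _y : Ω, (1 : ℤ) :=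
          Finset.sum_le_sum fun y _ => by rcases h01 a y with h | h <;> simp [h]
      _ = _ := by simp
  have e2 : N + l * Fintype.card Ω = k ^ 2 := by
    have h : (A * Aᵀ) * J = (k ^ 2) • J := by
      rw [Matrix.mul_assoc, hATJ, Matrix.mul_smul, hAJ, smul_smul, sq]
    rw [f1, add_mul, smul_mul_assoc, smul_mul_assoc, one_mul, JJ, smul_smul, ← add_smul] at h
    simpa [J] using congrFun (congrFun h a) a
  have e4 : a' + b' * Fintype.card Ω = k ^ (2 * j + 1) := by
    have h : ∀ m : ℕ, A ^ m * J = (k ^ m) • J := fun m => by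
      induction m with
      | zero => simp
      | succ m ih => rw [pow_succ', Matrix.mul_assoc, ih, Matrix.mul_smul, hAJ, smul_smul, pow_succ]
    have h := h (2 * j + 1)
    rw [f2, add_mul, smul_mul_assoc, smul_mul_assoc, one_mul, JJ, smul_smul, ← add_smul] at h
    simpa [J] using congrFun (congrFun h a) a
  have e3 : N ^ (2 * j + 1) = a' ^ 2 := by
    have h : ∀ m : ℕ, ∃ c : ℤ, A ^ m * (A ^ m)ᵀ = (N ^ m) • (1 : Matrix Ω Ω ℤ) + c • J := fun m => by
      induction m with
      | zero => exact ⟨0, by simp⟩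
      | succ m ih =>
        obtain ⟨c, hc⟩ := ih
        refine ⟨N ^ m * l + c * (k * k), ?_⟩
        rw [pow_succ', Matrix.transpose_mul, ← Matrix.mul_assoc, Matrix.mul_assoc A, hc, mul_add,
          add_mul, Matrix.mul_smul, Matrix.mul_smul, mul_one, hAJ, smul_mul_assoc, smul_mul_assoc,
          smul_mul_assoc, hJA, f1]
        simp only [smul_add, smul_smul, add_smul, pow_succ, add_assoc]
    obtain ⟨c, hc⟩ := h (2 * j + 1)
    have hJT : (J : Matrix Ω Ω ℤ)ᵀ = J := rfl
    rw [f2, Matrix.transpose_add, Matrix.transpose_smul, Matrix.transpose_smul, Matrix.transpose_one,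
      hJT] at hc
    refine (coef hab (p := a' ^ 2) (q := 2 * a' * b' + b' * b' * Fintype.card Ω) (s := c) ?_).symm
    rw [← hc]
    simp only [add_mul, mul_add, smul_mul_assoc, Matrix.mul_smul, one_mul, mul_one, JJ, smul_smul]
    module
  exact arith hn' hk hkn hc hl0 (by rw [hN, hdiag]; ring) e2 e3 e4

omit [DecidableEq Ω] in
theorem exists_perm (htr : ∀ x y : Ω, ∃ g : G, g • x = y) (β : MulAut G) (o w : Ω)
    (h : ∀ g : G, g • o = o → β g • w = w) :
    ∃ σ : Equiv.Perm Ω, ∀ (g : G) x, σ (g • x) = β g • σ x := by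
  choose c hc using htr o
  let s : Ω → Ω := fun x => β (c x) • w
  have hs : ∀ (g : G) x, s (g • x) = β g • s x := fun g x => by
    have := h ((c (g • x))⁻¹ * g * c x) (by rw [mul_smul, mul_smul, hc, inv_smul_eq_iff, hc])
    simp only [map_mul, map_inv, mul_smul, inv_smul_eq_iff] at this
    exact this.symm
  have hsurj : Function.Surjective s := fun y => by
    refine ⟨β⁻¹ (c y * (c (s o))⁻¹) • o, ?_⟩
    rw [hs]
    simp only [MulAut.apply_inv_self, mul_smul]
    rw [inv_smul_eq_iff.2 (hc (s o)).symm, hc]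
  exact ⟨Equiv.ofBijective s (Finite.surjective_iff_bijective.1 hsurj), hs⟩

omit [DecidableEq Ω] in
theorem main (h2 : ∀ a b c d : Ω, a ≠ b → c ≠ d → ∃ g : G, g • a = c ∧ g • b = d)
    (β : MulAut G) (hβ : Odd (orderOf β)) (o w : Ω)
    (hk : (Nat.card (MulAction.orbit ((MulAction.stabilizer G o).map β.toMonoidHom) w)).Coprime
      (Fintype.card Ω)) :
    (∃ σ : Equiv.Perm Ω, ∀ (g : G) x, σ (g • x) = β g • σ x) ∧
    (Nat.card (MulAction.orbit ((MulAction.stabilizer G o).map β.toMonoidHom) w) = 1 ∨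
      Nat.card (MulAction.orbit ((MulAction.stabilizer G o).map β.toMonoidHom) w) =
        Fintype.card Ω - 1) := by
  classical
  have htr : ∀ x y : Ω, ∃ g : G, g • x = y := fun x y => by
    by_cases hx : x = y
    · exact ⟨1, by rw [hx, one_smul]⟩
    · obtain ⟨g, h1, -⟩ := h2 x y y x hx (Ne.symm hx)
      exact ⟨g, h1⟩
  set K := (MulAction.stabilizer G o).map β.toMonoidHom with hK
  set O := MulAction.orbit K w with hO
  have hcard : Nat.card O = O.ncard := rfl
  have hw : w ∈ O := MulAction.mem_orbit_self w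
  have hkey : Nat.card O = 1 ∨ Nat.card O = Fintype.card Ω - 1 := by
    have hpos : 0 < O.ncard := (Set.ncard_pos (Set.toFinite _)).2 ⟨w, hw⟩
    have hle : O.ncard ≤ Fintype.card Ω := by
      rw [← Nat.card_eq_fintype_card, ← Set.ncard_univ]
      exact Set.ncard_le_ncard (Set.subset_univ _)
    by_cases hn : 2 ≤ Fintype.card Ω
    swap
    · left; omega
    obtain ⟨j, hj⟩ := hβ
    let A : Matrix Ω Ω ℤ := fun x y => if ∃ g : G, β g • w = x ∧ g • o = y then 1 else 0
    have hA : Inv β A := fun g x y => by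
      simp only [A]
      congr 1
      refine propext ⟨?_, ?_⟩
      · rintro ⟨h, h1, h3⟩
        exact ⟨g⁻¹ * h, by rw [map_mul, map_inv, mul_smul, h1, inv_smul_smul],
          by rw [mul_smul, h3, inv_smul_smul]⟩
      · rintro ⟨h, h1, h3⟩
        exact ⟨g * h, by rw [map_mul, mul_smul, h1], by rw [mul_smul, h3]⟩
    have ho : ∑ x, A x o = (O.ncard : ℤ) := by
      simp only [A, Finset.sum_boole]
      rw [Set.ncard_eq_toFinset_card']
      congr 2
      ext x
      simp only [Finset.mem_filter, Finset.mem_univ, true_and, Set.mem_toFinset, hO]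
      constructor
      · rintro ⟨g, h1, h3⟩
        exact ⟨⟨β g, g, h3, rfl⟩, h1⟩
      · rintro ⟨⟨_, g, h3, rfl⟩, h1⟩
        exact ⟨g, h1, h3⟩
    have hcol : ∀ y, ∑ x, A x y = (O.ncard : ℤ) := fun y => by
      obtain ⟨g, rfl⟩ := htr o y
      rw [← ho, ← Equiv.sum_comp (MulAction.toPerm (β g) : Equiv.Perm Ω)]
      exact Finset.sum_congr rfl fun x _ => hA g x o
    have := main_mat h2 hn β j (by rw [← hj, pow_orderOf_eq_one]) A hA
      (fun x y => by simp only [A]; split_ifs <;> simp) _ (by exact_mod_cast hpos) hcol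
      (Nat.isCoprime_iff_coprime.2 hk)
    omega
  refine ⟨?_, hkey⟩
  have hstab : ∀ g : G, g • o = o → ∀ x ∈ O, β g • x ∈ O := fun g hg x hx =>
    MulAction.mem_orbit_of_mem_orbit (⟨β g, g, hg, rfl⟩ : K) hx
  rcases hkey with h | h
  · obtain ⟨x, hx⟩ := Set.ncard_eq_one.1 h
    refine exists_perm htr β o w fun g hg => ?_
    have h1 := hstab g hg w hw
    rw [hx] at h1 hw
    exact h1.trans hw.symm
  · have h1 : Oᶜ.ncard = 1 := by
      have := Set.ncard_add_ncard_compl O
      have hp : 0 < Fintype.card Ω := Fintype.card_pos_iff.2 ⟨o⟩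
      rw [Nat.card_eq_fintype_card] at this
      omega
    obtain ⟨x, hx⟩ := Set.ncard_eq_one.1 h1
    refine exists_perm htr β o x fun g hg => ?_
    have hx' : x ∉ O := by
      have : x ∈ Oᶜ := by rw [hx]; rfl
      exact this
    have : β g • x ∈ Oᶜ := fun hm => hx' (by
      have := hstab g⁻¹ (inv_smul_eq_iff.2 hg.symm) _ hm
      rwa [map_inv, inv_smul_smul] at this)
    rwa [hx] at this

omit [DecidableEq Ω] [Fintype Ω] in
theorem to_norm (H : Subgroup (Equiv.Perm Ω)) (β : MulAut H) (σ : Equiv.Perm Ω)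
    (h : ∀ (g : H) x, σ (g • x) = β g • σ x) :
    σ ∈ Subgroup.normalizer (H : Set (Equiv.Perm Ω)) ∧
      ∀ g : H, ((β g : H) : Equiv.Perm Ω) = σ * (g : Equiv.Perm Ω) * σ⁻¹ := by
  have key : ∀ g : H, ((β g : H) : Equiv.Perm Ω) = σ * (g : Equiv.Perm Ω) * σ⁻¹ := fun g => by
    ext x
    have := h g (σ⁻¹ x)
    simp only [Equiv.Perm.coe_inv, Equiv.apply_symm_apply] at this
    exact this.symm
  refine ⟨Subgroup.mem_normalizer_iff.2 fun x => ⟨fun hx => ?_, fun hx => ?_⟩, key⟩
  · rw [← key ⟨x, hx⟩]; exact (β _).2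
  · have := key (β⁻¹ ⟨_, hx⟩)
    simp only [MulAut.apply_inv_self, mul_left_inj, mul_right_inj] at this
    rw [this]; exact (β⁻¹ _).2

end H40.TwoAut
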